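import Mathlib

/-!
Automorphisms of odd order of doubly transitive groups: the incidence-matrix argument.
-/

set_option autoImplicit false
set_option linter.unusedSectionVars false

namespace Cfsg.Lib.Perm.OddAut

open MulAction Matrix

variable {G Ω : Type*} [Group G] [Finite G] [Fintype Ω] [DecidableEq Ω] [MulAction G Ω]
variable (h2 : IsMultiplyPretransitive G Ω 2) (o : Ω)

/-- The number of fixed points. -/
noncomputable def fx (Ω : Type*) [MulAction G Ω] (g : G) : ℕ := Nat.card {x : Ω // g • x = x}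

theorem fx_conj (g k : G) : fx Ω (k * g * k⁻¹) = fx Ω g := by
  refine Nat.card_congr ((MulAction.toPerm k⁻¹).subtypeEquiv fun x => ?_)
  show _ ↔ g • (k⁻¹ • x) = k⁻¹ • x
  rw [mul_smul, mul_smul, ← eq_inv_smul_iff (g := k)]

include h2 in
theorem exists_smul {x y : Ω} : ∃ g : G, g • x = y := by
  by_cases hxy : x = y
  · exact ⟨1, by rw [one_smul, hxy]⟩
  · obtain ⟨g, hg, -⟩ := is_two_pretransitive_iff.1 h2 hxy (Ne.symm hxy)
    exact ⟨g, hg⟩

include h2 in
theorem sum_fx_mul [Fintype G] (f : G → ℕ) (hf : ∀ g k, f (k * g * k⁻¹) = f g) [Fintype (stabilizer G o)] :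
    ∑ g, fx Ω g * f g = Fintype.card Ω * ∑ h : stabilizer G o, f h := by
  classical
  calc ∑ g, fx Ω g * f g = ∑ g, ∑ y : Ω, if g • y = y then f g else 0 := by
        refine Finset.sum_congr rfl fun g _ => ?_
        rw [← Finset.sum_filter, Finset.sum_const, smul_eq_mul, fx, Nat.card_eq_fintype_card, Fintype.card_subtype]
    _ = ∑ y : Ω, ∑ g, if g • y = y then f g else 0 := Finset.sum_comm
    _ = ∑ _y : Ω, ∑ h : stabilizer G o, f h := by
        refine Finset.sum_congr rfl fun y _ => ?_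
        obtain ⟨k, rfl⟩ := exists_smul h2 (x := o) (y := y)
        rw [← Equiv.sum_comp (MulAut.conj k).toEquiv, Finset.sum_ite, Finset.sum_const_zero, add_zero,
          Finset.sum_subtype _ (p := fun g => g ∈ stabilizer G o) (fun g => ?_)]
        · exact Finset.sum_congr rfl fun h _ => hf _ _
        · simp [-zsmul_eq_mul, mul_smul, mem_stabilizer_iff]
    _ = _ := by rw [Finset.sum_const, smul_eq_mul, Finset.card_univ]

/-- Same orbit of `β(G_o)`. -/
def Rel (β : MulAut G) (o x y : Ω) : Prop := ∃ h ∈ stabilizer G o, β h • x = y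

theorem Rel.symm' {β : MulAut G} {x y : Ω} (h : Rel β o x y) : Rel β o y x := by
  obtain ⟨h, hh, rfl⟩ := h
  exact ⟨h⁻¹, inv_mem hh, by rw [map_inv, inv_smul_smul]⟩

theorem Rel.trans' {β : MulAut G} {x y z : Ω} (h : Rel β o x y) (h' : Rel β o y z) : Rel β o x z := by
  obtain ⟨h, hh, rfl⟩ := h
  obtain ⟨k, hk, rfl⟩ := h'
  exact ⟨k * h, mul_mem hk hh, by rw [map_mul, mul_smul]⟩

theorem orbit_eq (β : MulAut G) (o x : Ω) :
    orbit ↥((stabilizer G o).map β.toMonoidHom) x = {y | Rel β o x y} := by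
  ext y
  constructor
  · rintro ⟨⟨_, h, hh, rfl⟩, rfl⟩; exact ⟨h, hh, rfl⟩
  · rintro ⟨h, hh, rfl⟩; exact ⟨⟨β h, h, hh, rfl⟩, rfl⟩

include h2 in
/-- `β(G_o)` has at most two orbits. -/
theorem three (β : MulAut G) (x y z : Ω) : Rel β o x y ∨ Rel β o x z ∨ Rel β o y z := by
  classical
  haveI := Fintype.ofFinite G
  haveI := Fintype.ofFinite ↥(stabilizer G o)
  set H := stabilizer G o
  set K := H.map β.toMonoidHom
  haveI := Fintype.ofFinite K
  set n := Fintype.card Ω
  have hH : ∑ h : H, fx Ω (h : G) ≤ 2 * Fintype.card H := by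
    have hb := sum_card_fixedBy_eq_card_orbits_mul_card_group H Ω
    have hfx : ∀ h : H, fx Ω (h : G) = Fintype.card (fixedBy Ω h) := fun h => by
      rw [fx, Nat.card_eq_fintype_card]; exact Fintype.card_congr (Equiv.refl _)
    rw [Finset.sum_congr rfl fun h _ => hfx h, hb]
    refine Nat.mul_le_mul_right _ ?_
    let f : Quotient (orbitRel H Ω) → Bool := Quotient.lift (fun u => decide (u = o)) fun u v huv => by
      obtain ⟨⟨g, hg⟩, rfl⟩ := huv
      exact decide_eq_decide.2 ⟨fun e => smul_left_cancel g (e.trans (mem_stabilizer_iff.1 hg).symm),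
        fun e => by show g • v = o; rw [e]; exact hg⟩
    refine (Fintype.card_le_of_injective f ?_).trans (le_of_eq Fintype.card_bool)
    intro q r
    induction q using Quotient.inductionOn with
    | h u =>
      induction r using Quotient.inductionOn with
      | h v =>
        intro huv
        have huv' : (u = o) ↔ (v = o) := decide_eq_decide.1 huv
        by_cases hu : u = o
        · rw [hu, huv'.1 hu]
        · refine Quotient.sound ?_
          obtain ⟨g, hg1, hg2⟩ := is_two_pretransitive_iff.1 h2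
            (Ne.symm fun e => hu (huv'.2 e) : o ≠ v) (Ne.symm hu : o ≠ u)
          exact ⟨⟨g, hg1⟩, hg2⟩
  have hK : ∑ k : K, Fintype.card (fixedBy Ω k) = ∑ h : H, fx Ω (β h) := by
    refine (Fintype.sum_equiv (H.equivMapOfInjective β.toMonoidHom β.injective).toEquiv _ _ fun h => ?_).symm
    rw [fx, Nat.card_eq_fintype_card]
    exact Fintype.card_congr (Equiv.refl _)
  have hle : 2 * (n * ∑ h : H, fx Ω (β h)) ≤ 2 * (n * (2 * Fintype.card H)) := by
    rw [← sum_fx_mul h2 o (fun g => fx Ω (β g)) (fun g k => by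
      simp only [map_mul, map_inv]; exact fx_conj _ _), Finset.mul_sum]
    calc ∑ g, 2 * (fx Ω g * fx Ω (β g)) ≤ ∑ g, (fx Ω g * fx Ω g + fx Ω (β g) * fx Ω (β g)) :=
          Finset.sum_le_sum fun g _ => by nlinarith [two_mul_le_add_sq (fx Ω g) (fx Ω (β g))]
      _ = 2 * ∑ g, fx Ω g * fx Ω g := by
          rw [Finset.sum_add_distrib, show ∑ g, fx Ω (β g) * fx Ω (β g) = ∑ g, fx Ω g * fx Ω g from
            Equiv.sum_comp β.toEquiv (fun g => fx Ω g * fx Ω g), two_mul]
      _ ≤ _ := by
          rw [sum_fx_mul h2 o (fun g => fx Ω g) fx_conj]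
          exact Nat.mul_le_mul_left _ (Nat.mul_le_mul_left _ hH)
  have hn : 0 < n := Fintype.card_pos_iff.2 ⟨o⟩
  have hc : Fintype.card (Quotient (orbitRel K Ω)) ≤ 2 := by
    have hb := sum_card_fixedBy_eq_card_orbits_mul_card_group K Ω
    have hle' := Nat.le_of_mul_le_mul_left (Nat.le_of_mul_le_mul_left hle two_pos) hn
    rw [← hK, hb, show Fintype.card H = Fintype.card K from
      Fintype.card_congr (H.equivMapOfInjective β.toMonoidHom β.injective).toEquiv] at hle'
    exact Nat.le_of_mul_le_mul_right hle' Fintype.card_pos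
  have hrel : ∀ u v : Ω, Quotient.mk (orbitRel K Ω) u = Quotient.mk _ v → Rel β o v u := fun u v huv => by
    have h' : u ∈ orbit ↥K v := Quotient.exact huv
    rw [orbit_eq] at h'
    exact h'
  by_contra hne
  push Not at hne
  have : ({Quotient.mk (orbitRel K Ω) x, Quotient.mk _ y, Quotient.mk _ z} : Finset _).card = 3 :=
    Finset.card_eq_three.2 ⟨_, _, _, fun e => hne.1 (hrel _ _ e).symm', fun e => hne.2.1 (hrel _ _ e).symm',
      fun e => hne.2.2 (hrel _ _ e).symm', rfl⟩
  have := this ▸ Finset.card_le_univ ({Quotient.mk (orbitRel K Ω) x, Quotient.mk _ y, Quotient.mk _ z} : Finset _)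
  omega

/-- Invariance of a matrix. -/
def Inv (β : MulAut G) (M : Matrix Ω Ω ℤ) : Prop := ∀ (g : G) (x y : Ω), M (β g • x) (g • y) = M x y

/-- The all-one matrix. -/
def J (Ω : Type*) : Matrix Ω Ω ℤ := Matrix.of fun _ _ => 1

theorem J_apply (x y : Ω) : J Ω x y = 1 := rfl

theorem inv_J (β : MulAut G) : Inv β (J Ω) := fun _ _ _ => rfl

theorem Inv.mul {β γ : MulAut G} {M N : Matrix Ω Ω ℤ} (hM : Inv β M) (hN : Inv γ N) : Inv (β * γ) (M * N) := by
  intro g x y
  rw [Matrix.mul_apply, Matrix.mul_apply, ← Equiv.sum_comp (MulAction.toPerm (γ g))]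
  refine Finset.sum_congr rfl fun z _ => ?_
  show M (β (γ g) • x) (γ g • z) * N (γ g • z) (g • y) = _
  rw [hM, hN]

theorem Inv.transpose {β : MulAut G} {M : Matrix Ω Ω ℤ} (hM : Inv β M) : Inv β⁻¹ Mᵀ := by
  intro g x y
  rw [Matrix.transpose_apply, Matrix.transpose_apply]
  conv_lhs => rw [show g = β (β⁻¹ g) from (MulEquiv.apply_symm_apply β g).symm]
  rw [show β⁻¹ (β (β⁻¹ g)) = β⁻¹ g from MulEquiv.symm_apply_apply β _, hM]

include h2 in
theorem Inv.ext_col {β : MulAut G} {M N : Matrix Ω Ω ℤ} (hM : Inv β M) (hN : Inv β N)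
    (h : ∀ x, M x o = N x o) : M = N := by
  ext x y
  obtain ⟨g, rfl⟩ := exists_smul h2 (x := o) (y := y)
  rw [show x = β g • ((β g)⁻¹ • x) from (smul_inv_smul _ _).symm, hM, hN, h]

theorem Inv.col {β : MulAut G} {M : Matrix Ω Ω ℤ} (hM : Inv β M) {x y : Ω} (h : Rel β o x y) : M x o = M y o := by
  obtain ⟨h, hh, rfl⟩ := h
  conv_rhs => rw [← mem_stabilizer_iff.1 hh]
  rw [hM]

theorem Inv.lin {β : MulAut G} {M N : Matrix Ω Ω ℤ} (hM : Inv β M) (hN : Inv β N) (c d : ℤ) :
    Inv β (c • M + d • N) := fun g x y => by simp only [Matrix.add_apply, Matrix.smul_apply, hM g x y, hN g x y]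

include h2 in
/-- Invariant matrices for the identity. -/
theorem inv_one {M : Matrix Ω Ω ℤ} (hM : Inv (1 : MulAut G) M) {p : Ω} (hp : p ≠ o) :
    M = (M o o - M p o) • (1 : Matrix Ω Ω ℤ) + M p o • J Ω := by
  ext x y
  by_cases hxy : x = y
  · subst hxy
    obtain ⟨g, rfl⟩ := exists_smul h2 (x := o) (y := x)
    have := hM g o o
    rw [MulAut.one_apply] at this
    simp only [Matrix.add_apply, Matrix.smul_apply, Matrix.one_apply_eq, J_apply, smul_eq_mul, this]
    ring
  · obtain ⟨g, rfl, rfl⟩ := is_two_pretransitive_iff.1 h2 hp hxy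
    have := hM g p o
    rw [MulAut.one_apply] at this
    simp only [Matrix.add_apply, Matrix.smul_apply, Matrix.one_apply_ne hxy, J_apply, smul_eq_mul, this]
    ring

theorem coef {a b a' b' : ℤ} {p : Ω} (hp : p ≠ o) (h : a • (1 : Matrix Ω Ω ℤ) + b • J Ω = a' • 1 + b' • J Ω) :
    a = a' ∧ b = b' := by
  have h1 := congrFun (congrFun h o) o
  have h3 := congrFun (congrFun h p) o
  simp only [Matrix.add_apply, Matrix.smul_apply, Matrix.one_apply_eq, Matrix.one_apply_ne hp, J_apply, smul_eq_mul, mul_one, mul_zero, zero_add] at h1 h3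
  omega

theorem J_mul_J : J Ω * J Ω = (Fintype.card Ω : ℤ) • J Ω := by
  ext x y; simp [-zsmul_eq_mul, Matrix.mul_apply, J_apply]

theorem mul_J {M : Matrix Ω Ω ℤ} {r : ℤ} (h : ∀ x, ∑ y, M x y = r) : M * J Ω = r • J Ω := by
  ext x y; simp [-zsmul_eq_mul, Matrix.mul_apply, J_apply, h]

theorem J_mul {M : Matrix Ω Ω ℤ} {r : ℤ} (h : ∀ y, ∑ x, M x y = r) : J Ω * M = r • J Ω := by
  ext x y; simp [-zsmul_eq_mul, Matrix.mul_apply, J_apply, h]

theorem J_transpose : (J Ω)ᵀ = J Ω := rfl

/-- A square design. -/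
structure Des (M : Matrix Ω Ω ℤ) (k lam : ℤ) : Prop where
  tm : Mᵀ * M = (k - lam) • 1 + lam • J Ω
  mt : M * Mᵀ = (k - lam) • 1 + lam • J Ω
  jm : J Ω * M = k • J Ω
  mj : M * J Ω = k • J Ω
  tj : Mᵀ * J Ω = k • J Ω
  eqn : k * k = (k - lam) + lam * Fintype.card Ω
  lam0 : 0 ≤ lam

include h2 in
theorem exists_des {β : MulAut G} {M : Matrix Ω Ω ℤ} (hM : Inv β M) (h01 : ∀ x y, M x y = 0 ∨ M x y = 1)
    {p : Ω} (hp : p ≠ o) : ∃ lam, Des M (∑ x, M x o) lam := by
  have hcol : ∀ {γ : MulAut G} {N : Matrix Ω Ω ℤ}, Inv γ N → ∀ y, ∑ x, N x y = ∑ x, N x o := by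
    intro γ N hN y
    obtain ⟨g, rfl⟩ := exists_smul h2 (x := o) (y := y)
    rw [← Equiv.sum_comp (MulAction.toPerm (γ g))]
    exact Finset.sum_congr rfl fun x _ => hN g x o
  set k := ∑ x, M x o
  set r := ∑ y, M o y
  have hc : ∀ y, ∑ x, M x y = k := hcol hM
  have hr0 : ∀ x, ∑ y, M x y = r := fun x => hcol hM.transpose x
  have hn : (Fintype.card Ω : ℤ) ≠ 0 := by
    simpa using (Fintype.card_pos_iff.2 ⟨o⟩).ne'
  have hrk : r = k := by
    have := Finset.sum_comm (s := Finset.univ) (t := Finset.univ) (f := fun x y => M x y)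
    rw [Finset.sum_congr rfl (fun x _ => hr0 x), Finset.sum_congr rfl (fun y _ => hc y)] at this
    simp only [Finset.sum_const, Finset.card_univ, nsmul_eq_mul] at this
    exact mul_left_cancel₀ hn this
  have hr : ∀ x, ∑ y, M x y = k := fun x => (hr0 x).trans hrk
  have hsq : ∀ x y, M x y * M x y = M x y := fun x y => by rcases h01 x y with h | h <;> simp [-zsmul_eq_mul, h]
  have hnn : ∀ x y, 0 ≤ M x y := fun x y => by rcases h01 x y with h | h <;> simp [-zsmul_eq_mul, h]
  have h1 := inv_one h2 o (by simpa using hM.transpose.mul hM) hp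
  have h1' := inv_one h2 o (by simpa using hM.mul hM.transpose) hp
  have hd : (Mᵀ * M) o o = k := by simp [-zsmul_eq_mul, Matrix.mul_apply, hsq, k]
  have hd' : (M * Mᵀ) o o = k := by simp [-zsmul_eq_mul, Matrix.mul_apply, hsq, hr]
  set lam := (Mᵀ * M) p o
  set lam' := (M * Mᵀ) p o
  rw [hd] at h1; rw [hd'] at h1'
  have htj : Mᵀ * J Ω = k • J Ω := mul_J fun x => hc x
  have hmj : M * J Ω = k • J Ω := mul_J hr
  have hjm : J Ω * M = k • J Ω := J_mul hc
  have e1 : k * k = (k - lam) + lam * Fintype.card Ω := by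
    have := congrArg (fun A => (A * J Ω) o o) h1
    simp only [Matrix.mul_assoc, hmj, Matrix.mul_smul, htj, smul_smul, Matrix.add_mul, Matrix.smul_mul, one_mul,
      J_mul_J] at this
    simpa [-zsmul_eq_mul, J_apply] using this
  have e2 : k * k = (k - lam') + lam' * Fintype.card Ω := by
    have := congrArg (fun A => (A * J Ω) o o) h1'
    simp only [Matrix.mul_assoc, htj, Matrix.mul_smul, hmj, smul_smul, Matrix.add_mul, Matrix.smul_mul, one_mul,
      J_mul_J] at this
    simpa [-zsmul_eq_mul, J_apply] using this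
  have hn1 : (Fintype.card Ω : ℤ) - 1 ≠ 0 := by
    have : 1 < Fintype.card Ω := Fintype.one_lt_card_iff.2 ⟨p, o, hp⟩
    omega
  have hll : lam' = lam := mul_right_cancel₀ hn1 (by linear_combination e1 - e2)
  rw [hll] at h1'
  refine ⟨lam, h1, h1', hjm, hmj, htj, e1, ?_⟩
  show (0 : ℤ) ≤ (Mᵀ * M) p o
  rw [Matrix.mul_apply]
  exact Finset.sum_nonneg fun x _ => mul_nonneg (hnn _ _) (hnn _ _)

include h2 in
/-- An invariant incidence matrix with given column. -/
theorem exists_inc (β : MulAut G) (x1 : Ω) : ∃ M : Matrix Ω Ω ℤ, Inv β M ∧ (∀ x y, M x y = 0 ∨ M x y = 1) ∧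
    ∀ x, (M x o = 1 ↔ Rel β o x1 x) := by
  classical
  refine ⟨Matrix.of fun x y => if ∃ g : G, g • o = y ∧ β g • x1 = x then 1 else 0, fun g x y => ?_, fun x y => ?_,
    fun x => ?_⟩
  · simp only [Matrix.of_apply]
    refine if_congr ⟨?_, ?_⟩ rfl rfl
    · rintro ⟨k, hk, hkx⟩
      exact ⟨g⁻¹ * k, by rw [mul_smul, hk, inv_smul_smul], by rw [map_mul, map_inv, mul_smul, hkx, inv_smul_smul]⟩
    · rintro ⟨k, rfl, rfl⟩
      exact ⟨g * k, mul_smul _ _ _, by rw [map_mul, mul_smul]⟩
  · simp only [Matrix.of_apply]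
    split_ifs <;> simp
  · simp only [Matrix.of_apply]
    split_ifs with h
    · exact iff_of_true rfl h
    · exact iff_of_false (by decide) h

include h2 in
theorem decomp {β : MulAut G} {M N : Matrix Ω Ω ℤ} (hM : Inv β M) (hN : Inv β N) {x0 x1 : Ω}
    (h01 : ¬ Rel β o x1 x0) (h1 : N x1 o = 1) (h0 : N x0 o = 0) :
    M = (M x1 o - M x0 o) • N + M x0 o • J Ω := by
  refine Inv.ext_col h2 o hM (hN.lin (inv_J β) _ _) fun x => ?_
  rcases three h2 o β x1 x0 x with h | h | h
  · exact absurd h h01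
  · simp [-zsmul_eq_mul, ← hM.col o h, ← hN.col o h, h1, J_apply]
  · simp [-zsmul_eq_mul, ← hM.col o h, ← hN.col o h, h0, J_apply]

include h2 in
/-- The key computation: a coprime orbit makes `α²(G_o)` fix a point. -/
theorem sq_fixes (α : MulAut G) {ω : Ω}
    (hk : (Nat.card (orbit ↥((stabilizer G o).map α.toMonoidHom) ω)).Coprime (Fintype.card Ω)) {p : Ω} (hp : p ≠ o) :
    ∃ q : Ω, ∀ h ∈ stabilizer G o, (α * α) h • q = q := by
  classical
  have hn2 : 1 < Fintype.card Ω := Fintype.one_lt_card_iff.2 ⟨p, o, hp⟩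
  obtain ⟨M, hM, hM01, hMc⟩ := exists_inc h2 o α ω
  obtain ⟨lam, hD⟩ := exists_des h2 o hM hM01 hp
  set k := ∑ x, M x o with hkdef
  set n : ℤ := (Fintype.card Ω : ℤ)
  have hsum : ∀ {γ : MulAut G} {N : Matrix Ω Ω ℤ} {a : Ω}, (∀ x y, N x y = 0 ∨ N x y = 1) →
      (∀ x, (N x o = 1 ↔ Rel γ o a x)) → ∑ x, N x o = ((Finset.univ.filter (Rel γ o a)).card : ℤ) := by
    intro γ N a hN hNc
    rw [Finset.card_eq_sum_ones, Nat.cast_sum, Finset.sum_filter]
    refine Finset.sum_congr rfl fun x _ => ?_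
    split_ifs with h
    · simpa using (hNc x).2 h
    · exact (hN x o).resolve_right fun e => h ((hNc x).1 e)
  have hkn : IsCoprime k n := by
    rw [hkdef, hsum hM01 hMc]
    rw [orbit_eq, show Nat.card {y | Rel α o ω y} = (Finset.univ.filter (Rel α o ω)).card by
      rw [Nat.card_eq_fintype_card]; simp] at hk
    exact Int.isCoprime_iff_nat_coprime.2 (by simpa [-zsmul_eq_mul, n] using hk)
  have hs : k - lam ≠ 0 := by
    intro e
    have h := hD.eqn
    rw [e, zero_add, show lam = k by linarith] at h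
    have hu : IsUnit n := by
      rcases eq_or_ne k 0 with hk0 | hk0
      · rw [hk0, isCoprime_zero_left] at hkn; exact hkn
      · have : k = n := mul_left_cancel₀ hk0 h
        rw [this, isCoprime_self] at hkn; exact hkn
    rcases Int.isUnit_iff.1 hu with h1 | h1 <;> omega
  have hMM : Inv (α * α) (M * M) := hM.mul hM
  by_cases htr : ∀ x y, Rel (α * α) o x y
  · exfalso
    have he : M * M = (M * M) o o • J Ω := by
      have := Inv.ext_col h2 o hMM ((inv_J (G := G) (α * α)).lin (inv_J _) ((M * M) o o) 0) fun x => by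
        simp [-zsmul_eq_mul, hMM.col o (htr o x), J_apply]
      simpa using this
    have e : (Mᵀ * M) * (M * Mᵀ) = Mᵀ * ((M * M) * Mᵀ) := by simp only [Matrix.mul_assoc]
    have hjt : J Ω * Mᵀ = k • J Ω := by
      rw [← J_transpose, ← Matrix.transpose_mul, hD.mj, Matrix.transpose_smul]
    rw [he, hD.tm, hD.mt] at e
    simp only [Matrix.smul_mul, Matrix.mul_smul, hjt, hD.tj, Matrix.add_mul, Matrix.mul_add, one_mul, mul_one,
      smul_smul, J_mul_J] at e
    have := (coef (a := (k - lam) * (k - lam)) (b := (k - lam) * lam + lam * (k - lam) + lam * lam * n) (a' := 0)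
      (b' := (M * M) o o * k * k) o hp (by
        rw [zero_smul, zero_add]
        refine Eq.trans ?_ e
        module)).1
    exact hs (mul_self_eq_zero.1 this)
  push Not at htr
  obtain ⟨x1, x0, h10⟩ := htr
  obtain ⟨N, hN, hN01, hNc⟩ := exists_inc h2 o (α * α) x1
  obtain ⟨lam', hD'⟩ := exists_des h2 o hN hN01 hp
  set k' := ∑ x, N x o with hk'def
  have hx1 : Rel (α * α) o x1 x1 := ⟨1, one_mem _, by rw [map_one, one_smul]⟩
  have hN1 : N x1 o = 1 := (hNc x1).2 hx1
  have hN0 : N x0 o = 0 := (hN01 x0 o).resolve_right fun e => h10 ((hNc x0).1 e)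
  have hTN : Inv α (Mᵀ * N) := by
    have h := hM.transpose.mul hN
    rwa [inv_mul_cancel_left] at h
  have hω : Rel α o ω ω := ⟨1, one_mem _, by rw [map_one, one_smul]⟩
  have hout : ∃ z, ¬ Rel α o ω z := by
    by_contra hall
    push Not at hall
    have : k = n := by
      rw [hkdef, hsum hM01 hMc, Finset.filter_true_of_mem fun x _ => hall x, Finset.card_univ]
    rw [this, isCoprime_self] at hkn
    rcases Int.isUnit_iff.1 hkn with h1 | h1 <;> omega
  obtain ⟨z, hz⟩ := hout
  have hM0 : M z o = 0 := (hM01 z o).resolve_right fun e => hz ((hMc z).1 e)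
  have hdec := decomp h2 o hTN hM hz ((hMc ω).2 hω) hM0
  set c := (Mᵀ * N) ω o - (Mᵀ * N) z o
  set d := (Mᵀ * N) z o
  have e1 : k * k' = c * k + d * n := by
    have h := congrArg (fun A => J Ω * A) hdec
    simp only [← Matrix.mul_assoc, Matrix.mul_add, Matrix.mul_smul, hD.jm, J_mul_J] at h
    rw [show J Ω * Mᵀ = k • J Ω by rw [← J_transpose, ← Matrix.transpose_mul, hD.mj, Matrix.transpose_smul],
      Matrix.smul_mul, hD'.jm] at h
    have := congrFun (congrFun h o) o
    simp only [Matrix.add_apply, Matrix.smul_apply, J_apply, smul_eq_mul, mul_one] at this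
    linear_combination this
  have hMtJ : Mᵀ * J Ω = k • J Ω := hD.tj
  have e2 : c * c * (k - lam) = (k - lam) * (k' - lam') := by
    have h : (Mᵀ * N)ᵀ * (Mᵀ * N) = Nᵀ * (M * Mᵀ) * N := by
      rw [Matrix.transpose_mul, Matrix.transpose_transpose]; simp only [Matrix.mul_assoc]
    rw [hdec, hD.mt] at h
    simp only [Matrix.transpose_add, Matrix.transpose_smul, J_transpose, Matrix.add_mul, Matrix.mul_add,
      Matrix.smul_mul, Matrix.mul_smul, mul_one, Matrix.one_mul, hD.tm, hD'.tm, hD.jm, hD'.tj, hMtJ, hD'.jm, J_mul_J,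
      smul_smul, smul_add] at h
    refine (coef (b := c * c * lam + d * c * k + c * d * k + d * d * n)
      (b' := (k - lam) * lam' + lam * (k' * k')) o hp ?_).1
    refine Eq.trans ?_ (h.trans ?_) <;> module
  have hc : c * c = k' - lam' := mul_right_cancel₀ hs (by linear_combination e2)
  have hdvd : n ∣ k' - c := (IsCoprime.symm hkn).dvd_of_dvd_mul_left ⟨d, by linear_combination e1⟩
  have hk'1 : 0 < k' := by
    rw [hk'def, hsum hN01 hNc]
    exact_mod_cast Finset.card_pos.2 ⟨x1, by simp [-zsmul_eq_mul, hx1]⟩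
  have hk'n : k' < n := by
    rw [hk'def, hsum hN01 hNc]
    exact Int.ofNat_lt.2 ((Finset.card_lt_card (Finset.filter_ssubset.2 ⟨x0, Finset.mem_univ _, h10⟩)).trans_le
      le_rfl)
  have hlam := hD'.lam0
  have heq := hD'.eqn
  have hsq : c * c ≤ k' * k' := by
    rw [hc, heq]
    have : 0 ≤ lam' * n := mul_nonneg hlam (by positivity)
    linarith
  have hbound : -k' ≤ c ∧ c ≤ k' := by constructor <;> nlinarith
  have hcases : k' = 1 ∨ k' = n - 1 := by
    obtain ⟨t, ht⟩ := hdvd
    have : t = 0 ∨ t = 1 := by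
      by_contra hh
      push Not at hh
      rcases lt_or_gt_of_ne hh.1 with h0 | h0
      · nlinarith
      · have : 2 ≤ t := by omega
        nlinarith
    rcases this with rfl | rfl
    · left
      have hck : c = k' := by linarith
      rw [hck] at hc
      have : lam' = 0 := by
        have : lam' * n = 0 := by linarith
        simpa [-zsmul_eq_mul, show n ≠ 0 by omega] using this
      nlinarith
    · right
      have hcn : c = k' - n := by linarith
      have hl : lam' = 2 * k' - n := by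
        have : lam' * n = (2 * k' - n) * n := by
          rw [hcn] at hc
          nlinarith
        exact mul_right_cancel₀ (by omega) this
      rw [hl, hcn] at hc
      have hne : k' - n ≠ 0 := by omega
      have : k' - n = -1 := mul_left_cancel₀ hne (by linarith)
      linarith
  rcases hcases with h | h
  · rw [hk'def, hsum hN01 hNc] at h
    refine ⟨x1, fun g hg => ?_⟩
    exact Finset.card_le_one.1 (by omega : (Finset.univ.filter (Rel (α * α) o x1)).card ≤ 1) _
      (by simpa using ⟨g, hg, rfl⟩) _ (by simp [-zsmul_eq_mul, hx1])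
  · rw [hk'def, hsum hN01 hNc] at h
    refine ⟨x0, fun g hg => ?_⟩
    have hcard : (Finset.univ.filter fun x => ¬ Rel (α * α) o x1 x).card ≤ 1 := by
      have := Finset.card_filter_add_card_filter_not (s := (Finset.univ : Finset Ω)) (Rel (α * α) o x1)
      rw [Finset.card_univ] at this
      simp only [n] at h
      omega
    refine Finset.card_le_one.1 hcard _ ?_ _ (by simp [-zsmul_eq_mul, h10])
    simp only [Finset.mem_filter, Finset.mem_univ, true_and]
    exact fun hr => h10 (hr.trans' o (Rel.symm' o ⟨g, hg, rfl⟩))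

/-- `β(G_o)` fixes a point. -/
def Fixes (β : MulAut G) (o : Ω) : Prop := ∃ q : Ω, ∀ h ∈ stabilizer G o, β h • q = q

include h2 in
theorem Fixes.mul {β γ : MulAut G} (hβ : Fixes β o) (hγ : Fixes γ o) : Fixes (β * γ) o := by
  obtain ⟨q, hq⟩ := hβ
  obtain ⟨r, hr⟩ := hγ
  obtain ⟨g, rfl⟩ := exists_smul h2 (x := o) (y := r)
  refine ⟨β g • q, fun h hh => ?_⟩
  have h1 : g⁻¹ * γ h * g ∈ stabilizer G o := by
    rw [mem_stabilizer_iff, mul_smul, mul_smul, hr h hh, inv_smul_smul]
  have h3 := hq _ h1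
  rw [map_mul, map_mul, map_inv, mul_smul, mul_smul, inv_smul_eq_iff] at h3
  exact h3

include h2 in
theorem fixes_of_odd (α : MulAut G) (hα : Odd (orderOf α)) {ω : Ω}
    (hk : (Nat.card (orbit ↥((stabilizer G o).map α.toMonoidHom) ω)).Coprime (Fintype.card Ω)) :
    Fixes α o := by
  by_cases hp : ∃ p, p ≠ o
  · obtain ⟨p, hp⟩ := hp
    have h2f : Fixes (α * α) o := sq_fixes h2 o α hk hp
    obtain ⟨t, ht⟩ := hα
    have hall : ∀ j : ℕ, Fixes ((α * α) ^ j) o := by
      intro j
      induction j with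
      | zero => exact ⟨o, fun h hh => hh⟩
      | succ j ih => rw [pow_succ]; exact ih.mul h2 o h2f
    have := hall (t + 1)
    rwa [← pow_two, ← pow_mul, show 2 * (t + 1) = orderOf α + 1 by omega, pow_succ, pow_orderOf_eq_one, one_mul] at this
  · push Not at hp
    exact ⟨o, fun h _ => hp _⟩

include h2 in
/-- The permutation inducing `α`. -/
theorem exists_perm (α : MulAut G) {q : Ω} (hq : ∀ h ∈ stabilizer G o, α h • q = q) :
    ∃ σ : Equiv.Perm Ω, σ o = q ∧ ∀ (g : G) (x : Ω), σ (g • x) = α g • σ x := by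
  classical
  choose sec hsec using fun x => exists_smul h2 (x := o) (y := x)
  have hwd : ∀ g : G, α (sec (g • o)) • q = α g • q := by
    intro g
    have h1 : g⁻¹ * sec (g • o) ∈ stabilizer G o := by rw [mem_stabilizer_iff, mul_smul, hsec, inv_smul_smul]
    have h3 := hq _ h1
    rw [map_mul, map_inv, mul_smul, inv_smul_eq_iff] at h3
    exact h3
  have hsur : Function.Surjective fun x => α (sec x) • q := fun y => by
    obtain ⟨g, rfl⟩ := exists_smul h2 (x := q) (y := y)
    exact ⟨α.symm g • o, (hwd _).trans (by rw [MulEquiv.apply_symm_apply])⟩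
  have hone : α (sec o) • q = q := by
    have := hwd 1
    rwa [one_smul, map_one, one_smul] at this
  refine ⟨Equiv.ofBijective _ (Finite.surjective_iff_bijective.1 hsur), hone, fun g x => ?_⟩
  show α (sec (g • x)) • q = α g • (α (sec x) • q)
  have := hwd (g * sec x)
  rw [mul_smul, hsec, map_mul, mul_smul] at this
  exact this

include h2 in
theorem card_orbit (α : MulAut G) {σ : Equiv.Perm Ω} (hσ : ∀ (g : G) (x : Ω), σ (g • x) = α g • σ x) (ω : Ω) :
    Nat.card (orbit ↥((stabilizer G o).map α.toMonoidHom) ω) = 1 ∨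
      Nat.card (orbit ↥((stabilizer G o).map α.toMonoidHom) ω) = Fintype.card Ω - 1 := by
  classical
  obtain ⟨u, rfl⟩ := σ.surjective ω
  rw [orbit_eq]
  have key : ∀ y, Rel α o (σ u) y ↔ Rel 1 o u (σ.symm y) := fun y => by
    refine exists_congr fun h => and_congr_right fun _ => ?_
    rw [← hσ, MulAut.one_apply, Equiv.eq_symm_apply]
  rw [show Nat.card {y | Rel α o (σ u) y} = Nat.card {y | Rel 1 o u y} from
    Nat.card_congr (σ.symm.subtypeEquiv fun y => key y)]
  by_cases hu : u = o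
  · left
    rw [Nat.card_eq_one_iff_unique]
    refine ⟨⟨fun a b => Subtype.ext ?_⟩, ⟨u, 1, one_mem _, one_smul _ _⟩⟩
    have hh : ∀ a, Rel (1 : MulAut G) o u a → a = o := by
      rintro _ ⟨h, hh, rfl⟩
      rw [hu, MulAut.one_apply]
      exact hh
    rw [hh _ a.2, hh _ b.2]
  · right
    have : {y | Rel (1 : MulAut G) o u y} = ({o} : Set Ω)ᶜ := by
      ext y
      constructor
      · rintro ⟨h, hh, rfl⟩ e
        exact hu (smul_left_cancel h ((MulAut.one_apply G h ▸ e : h • u = o).trans (mem_stabilizer_iff.1 hh).symm))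
      · intro hy
        obtain ⟨g, hg1, hg2⟩ := is_two_pretransitive_iff.1 h2 (Ne.symm hu) (Ne.symm hy : o ≠ y)
        exact ⟨g, hg1, hg2⟩
    rw [this, Nat.card_eq_fintype_card, Fintype.card_compl_set, Set.card_singleton]

end Cfsg.Lib.Perm.OddAut
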