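import Mathlib

/-!
Sharply multiply transitive permutation groups: orders, point stabilizers, normalizers of
Sylow subgroups of prime degree.
-/

set_option autoImplicit false

namespace Cfsg.Lib.SharpTrans

open Subgroup

universe u

variable {α : Type u}

/-- `G` is sharply `k`-transitive. -/
def Sharp (k : ℕ) (G : Subgroup (Equiv.Perm α)) : Prop :=
  (∀ x y : Fin k ↪ α, ∃ g ∈ G, ∀ i, g (x i) = y i) ∧
    ∀ g ∈ G, ∀ x : Fin k ↪ α, (∀ i, g (x i) = x i) → g = 1

theorem sharp_of_stabilizer {k : ℕ} {G : Subgroup (Equiv.Perm α)}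
    [MulAction.IsMultiplyPretransitive G α k]
    (h : ∀ x : Fin k ↪ α, MulAction.stabilizer G x = ⊥) : Sharp k G := by
  refine ⟨fun x y => ?_, fun g hg x hx => ?_⟩
  · obtain ⟨g, hg⟩ := MulAction.exists_smul_eq G x y
    exact ⟨g, g.2, fun i => by rw [← hg]; rfl⟩
  · have h1 : (⟨g, hg⟩ : G) ∈ MulAction.stabilizer G x := by
      rw [MulAction.mem_stabilizer_iff]
      ext i
      exact hx i
    rw [h, Subgroup.mem_bot] at h1
    exact congrArg Subtype.val h1

theorem card_eq [Fintype α] {k : ℕ} {G : Subgroup (Equiv.Perm α)} (h : Sharp k G) (hk : k ≤ Fintype.card α) :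
    Nat.card G = (Fintype.card α).descFactorial k := by
  classical
  obtain ⟨x⟩ : Nonempty (Fin k ↪ α) := Function.Embedding.nonempty_of_card_le (by simpa using hk)
  have hb : Function.Bijective (fun g : G => (x.trans (g : Equiv.Perm α).toEmbedding : Fin k ↪ α)) := by
    refine ⟨fun a b hab => ?_, fun y => ?_⟩
    · have h1 := h.2 ((b : Equiv.Perm α)⁻¹ * a) (mul_mem (inv_mem b.2) a.2) x fun i => by
        have := DFunLike.congr_fun hab i
        simp only [Function.Embedding.trans_apply, Equiv.coe_toEmbedding] at this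
        rw [Equiv.Perm.mul_apply, this]; simp
      exact Subtype.ext (inv_mul_eq_one.1 h1).symm
    · obtain ⟨g, hg, e⟩ := h.1 x y
      exact ⟨⟨g, hg⟩, by ext i; exact e i⟩
  rw [Nat.card_congr (Equiv.ofBijective _ hb), Nat.card_eq_fintype_card, Fintype.card_embedding_eq,
    Fintype.card_fin]

/-- Every smaller degree of transitivity. -/
theorem transitive [Fintype α] {k j : ℕ} {G : Subgroup (Equiv.Perm α)} (h : Sharp k G) (hk : k ≤ Fintype.card α)
    (hj : j ≤ k) (x y : Fin j ↪ α) : ∃ g ∈ G, ∀ i, g (x i) = y i := by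
  classical
  have hext : ∀ z : Fin j ↪ α, ∃ z' : Fin k ↪ α, ∀ i, z' (Fin.castLE hj i) = z i := fun z => by
    obtain ⟨z0⟩ : Nonempty (Fin k ↪ α) := Function.Embedding.nonempty_of_card_le (by simpa using hk)
    haveI := Equiv.Perm.isMultiplyPretransitive α j
    obtain ⟨σ, hσ⟩ := MulAction.exists_smul_eq (Equiv.Perm α) ((Fin.castLEEmb hj).trans z0) z
    exact ⟨z0.trans σ.toEmbedding, fun i => DFunLike.congr_fun hσ i⟩
  obtain ⟨x', hx'⟩ := hext x
  obtain ⟨y', hy'⟩ := hext y
  obtain ⟨g, hg, e⟩ := h.1 x' y'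
  exact ⟨g, hg, fun i => by rw [← hx', e, hy']⟩

/-- The point stabilizer, acting on the other points. -/
theorem stabilizer_sharp [Fintype α] [DecidableEq α] {k : ℕ} {G : Subgroup (Equiv.Perm α)}
    (h : Sharp (k + 1) G) (a : α) :
    ∃ H : Subgroup (Equiv.Perm {x : α // x ≠ a}), Sharp k H ∧
      Nonempty (↥(G ⊓ MulAction.stabilizer (Equiv.Perm α) a) ≃* H) := by
  set S := G ⊓ MulAction.stabilizer (Equiv.Perm α) a
  have hfix : ∀ g : S, (g : Equiv.Perm α) a = a := fun g => g.2.2
  have hne : ∀ g : S, ∀ x : α, x ≠ a ↔ (g : Equiv.Perm α) x ≠ a := fun g x => by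
    conv_rhs => rw [← hfix g]
    exact ((g : Equiv.Perm α).injective.ne_iff).symm
  let f : S →* Equiv.Perm {x : α // x ≠ a} :=
    { toFun := fun g => (g : Equiv.Perm α).subtypePerm fun x => (hne g x).symm
      map_one' := by ext; rfl
      map_mul' := fun _ _ => by ext; rfl }
  have hinj : Function.Injective f := by
    intro g g' hgg
    refine Subtype.ext (Equiv.ext fun x => ?_)
    by_cases hx : x = a
    · rw [hx, hfix, hfix]
    · exact congrArg Subtype.val (DFunLike.congr_fun hgg ⟨x, hx⟩)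
  refine ⟨f.range, ⟨fun x y => ?_, ?_⟩, ⟨MonoidHom.ofInjective hinj⟩⟩
  · let ext : (Fin k ↪ {x : α // x ≠ a}) → (Fin (k + 1) ↪ α) := fun z =>
      ⟨Fin.cons a fun i => (z i : α), Fin.cons_injective_iff.2
        ⟨fun ⟨i, hi⟩ => (z i).2 hi, Subtype.val_injective.comp z.injective⟩⟩
    obtain ⟨g, hg, e⟩ := h.1 (ext x) (ext y)
    refine ⟨_, ⟨⟨g, hg, e 0⟩, rfl⟩, fun i => Subtype.ext ?_⟩
    have := e i.succ
    simpa [ext, f] using this
  · rintro _ ⟨g, rfl⟩ x hx
    have h1 := h.2 g g.2.1 ⟨Fin.cons a fun i => (x i : α), Fin.cons_injective_iff.2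
        ⟨fun ⟨i, hi⟩ => (x i).2 hi, Subtype.val_injective.comp x.injective⟩⟩ fun i => by
      refine Fin.cases ?_ (fun j => ?_) i
      · simpa using hfix g
      · simpa [f] using congrArg Subtype.val (hx j)
    rw [show g = 1 from Subtype.ext h1, map_one]

/-- An element commuting with a `p`-cycle in degree `p` is a power of it. -/
theorem centralizer_prime [Fintype α] [DecidableEq α] {p : ℕ} [hp : Fact p.Prime] (hα : Fintype.card α = p)
    {σ c : Equiv.Perm α} (hσ : orderOf σ = p) (hc : Commute c σ) : c ∈ zpowers σ := by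
  have hcyc : σ.IsCycle := Equiv.Perm.isCycle_of_prime_order (by rw [hσ]; exact hp.out)
    (by rw [hσ]; exact lt_of_le_of_lt (Finset.card_le_univ _) (by rw [hα]; have := hp.out.pos; omega))
  have hsupp : σ.support = Finset.univ := Finset.eq_univ_of_card _ (by
    rw [← hcyc.orderOf, hσ, hα])
  have hmove : ∀ x, σ x ≠ x := fun x => Equiv.Perm.mem_support.1 (hsupp ▸ Finset.mem_univ x)
  obtain ⟨a⟩ : Nonempty α := Fintype.card_pos_iff.1 (hα ▸ hp.out.pos)
  obtain ⟨i, hi⟩ := hcyc.sameCycle (hmove a) (hmove (c a))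
  refine ⟨i, (Equiv.ext fun x => ?_)⟩
  obtain ⟨j, rfl⟩ := hcyc.sameCycle (hmove a) (hmove x)
  show (σ ^ i) ((σ ^ j) a) = c ((σ ^ j) a)
  rw [← Equiv.Perm.mul_apply c, (hc.zpow_right j).eq, Equiv.Perm.mul_apply, ← hi,
    ← Equiv.Perm.mul_apply, ← Equiv.Perm.mul_apply, ← zpow_add, ← zpow_add, add_comm]

/-- The normalizer of a Sylow subgroup of order equal to the prime degree. -/
theorem normalizer_prime [Fintype α] [DecidableEq α] {p m : ℕ} [hp : Fact p.Prime] (hα : Fintype.card α = p)
    (G : Subgroup (Equiv.Perm α)) (hG : Nat.card G = p * m) (hm : ¬ p ∣ m) (P : Sylow p G) :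
    Nat.card (P : Subgroup G) = p ∧
      centralizer ((P : Subgroup G) : Set G) = P ∧
      ∃ d, d ∣ p - 1 ∧ Nat.card (normalizer ((P : Subgroup G) : Set G)) = p * d ∧
        Nat.card (Sylow p G) * d = m ∧ Nat.card (Sylow p G) % p = 1 := by
  have hm0 : m ≠ 0 := fun e => hm (e ▸ dvd_zero p)
  have hP : Nat.card (P : Subgroup G) = p := by
    rw [P.card_eq_multiplicity, hG, Nat.factorization_mul hp.out.ne_zero hm0, Finsupp.coe_add, Pi.add_apply,
      hp.out.factorization_self, Nat.factorization_eq_zero_of_not_dvd hm, pow_one]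
  haveI hPc : IsCyclic (P : Subgroup G) := isCyclic_of_prime_card hP
  obtain ⟨s, hs⟩ := IsCyclic.exists_generator (α := (P : Subgroup G))
  have hso : orderOf ((s : G) : Equiv.Perm α) = p := by
    rw [Subgroup.orderOf_coe, Subgroup.orderOf_coe, orderOf_eq_card_of_forall_mem_zpowers hs, hP]
  have hC : centralizer ((P : Subgroup G) : Set G) = P := by
    refine le_antisymm (fun c hc => ?_) (Subgroup.le_centralizer_iff_isMulCommutative.2 hPc.isMulCommutative)
    obtain ⟨i, hi⟩ := centralizer_prime hα hso (c := (c : Equiv.Perm α))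
      (congrArg Subtype.val (mem_centralizer_iff.1 hc s s.2).symm)
    have : c = (s : G) ^ i := Subtype.ext (by simpa using hi.symm)
    rw [this]
    exact zpow_mem s.2 i
  refine ⟨hP, hC, ?_⟩
  set N := normalizer ((P : Subgroup G) : Set G) with hN
  let φ : N →* MulAut ↥(P : Subgroup G) := (P : Subgroup G).normalizerMonoidHom
  have hker : φ.ker = (centralizer ((P : Subgroup G) : Set G)).subgroupOf N :=
    (P : Subgroup G).normalizerMonoidHom_ker
  have h1 := φ.ker.card_mul_index
  have h2 : Nat.card φ.ker = p := by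
    rw [hker, hC, Nat.card_congr (subgroupOfEquivOfLe (le_normalizer)).toEquiv, hP]
  have h3 : φ.ker.index ∣ p - 1 := by
    rw [index_ker]
    refine (card_subgroup_dvd_card _).trans ?_
    have key : ∀ n, n = p → Nat.card (ZMod n)ˣ ∣ p - 1 := by
      rintro n rfl
      rw [Nat.card_eq_fintype_card, ZMod.card_units_eq_totient, Nat.totient_prime hp.out]
    rw [Nat.card_congr (IsCyclic.mulAutMulEquiv ↥(P : Subgroup G)).toEquiv]
    exact key _ hP
  rw [h2] at h1
  refine ⟨_, h3, h1.symm, ?_, ?_⟩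
  · have h4 := N.card_mul_index
    rw [show N.index = Nat.card (Sylow p G) from P.card_eq_index_normalizer.symm, hG, ← h1] at h4
    rw [mul_assoc, mul_comm φ.ker.index] at h4
    exact Nat.eq_of_mul_eq_mul_left hp.out.pos h4
  · have h5 := card_sylow_modEq_one p G
    rwa [Nat.ModEq, Nat.one_mod_eq_one.mpr hp.out.ne_one] at h5

/-- A sharply `4`-transitive group of degree `11` is simple of order `7920`. -/
theorem simple_eleven [Fintype α] [DecidableEq α] (hα : Fintype.card α = 11) {G : Subgroup (Equiv.Perm α)}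
    (h : Sharp 4 G) : IsSimpleGroup G ∧ Nat.card G = 7920 := by
  haveI : Fact (Nat.Prime 11) := ⟨by norm_num⟩
  have hG : Nat.card G = 7920 := by rw [card_eq h (by omega), hα]; decide
  refine ⟨?_, hG⟩
  haveI : Nontrivial G := Finite.one_lt_card_iff_nontrivial.1 (by omega)
  obtain ⟨P⟩ : Nonempty (Sylow 11 G) := inferInstance
  obtain ⟨hP, hC, d, hd, hN, hnd, hmod⟩ := normalizer_prime (m := 720) hα G hG (by norm_num) P
  have hd5 : d = 5 := by
    have : d ∈ Nat.divisors 10 := Nat.mem_divisors.2 ⟨hd, by norm_num⟩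
    fin_cases this <;> omega
  rw [hd5] at hN
  have htrans : ∀ K : Subgroup G, K.Normal → K ≠ ⊥ → 11 ∣ Nat.card K := by
    intro K hK hK1
    obtain ⟨⟨k, hk⟩, hk1⟩ := (ne_bot_iff_exists_ne_one (H := K)).1 hK1
    obtain ⟨a, hab⟩ : ∃ a, (k : Equiv.Perm α) a ≠ a := by
      by_contra! hall
      exact hk1 (Subtype.ext (Subtype.ext (Equiv.ext hall)))
    haveI : MulAction.IsPretransitive K α := by
      have key : ∀ c, ∃ g : K, g • a = c := by
        intro c
        by_cases hc : c = a
        · exact ⟨1, by rw [one_smul, hc]⟩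
        · obtain ⟨g, hg, e⟩ := transitive h (by omega) (show 2 ≤ 4 by norm_num)
            ⟨![a, (k : Equiv.Perm α) a], by intro i j; fin_cases i <;> fin_cases j <;> simp [hab, Ne.symm hab]⟩
            ⟨![a, c], by intro i j; fin_cases i <;> fin_cases j <;> simp [hc, Ne.symm hc]⟩
          have e0 : g a = a := e 0
          have e1 : g ((k : Equiv.Perm α) a) = c := e 1
          refine ⟨⟨(⟨g, hg⟩ : G) * k * (⟨g, hg⟩ : G)⁻¹, hK.conj_mem k hk _⟩, ?_⟩
          show (g * (k : Equiv.Perm α) * g⁻¹) a = c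
          have e2 : g⁻¹ a = a := Equiv.Perm.inv_eq_iff_eq.2 e0.symm
          rw [Equiv.Perm.mul_apply, Equiv.Perm.mul_apply, e2, e1]
      refine ⟨fun x y => ?_⟩
      obtain ⟨g, rfl⟩ := key x
      obtain ⟨g', rfl⟩ := key y
      exact ⟨g' * g⁻¹, by rw [smul_smul, inv_mul_cancel_right]⟩
    obtain ⟨a⟩ : Nonempty α := Fintype.card_pos_iff.1 (by omega)
    have h1 := MulAction.index_stabilizer_of_transitive K a
    rw [Nat.card_eq_fintype_card, hα] at h1
    exact h1 ▸ index_dvd_card _
  refine ⟨fun M hM => ?_⟩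
  by_contra! hc
  have hM11 := htrans M hM hc.1
  have hPM : (P : Subgroup G) ≤ M := by
    obtain ⟨Q⟩ : Nonempty (Sylow 11 M) := inferInstance
    have hQ : Nat.card (Q : Subgroup M) = 11 := by
      obtain ⟨e, he⟩ := IsPGroup.iff_card.1 Q.isPGroup'
      have h1 : 11 ∣ Nat.card (Q : Subgroup M) := Q.dvd_card_of_dvd_card hM11
      have h2 : Nat.card (Q : Subgroup M) ∣ 7920 := hG ▸ (Subgroup.card_subgroup_dvd_card _).trans M.card_subgroup_dvd_card
      rw [he] at h1 h2 ⊢
      rcases e with _ | _ | e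
      · norm_num at h1
      · norm_num
      · exact absurd ((pow_dvd_pow 11 (by omega : 2 ≤ e + 2)).trans h2) (by norm_num)
    have hQ' : IsPGroup 11 ↥((Q : Subgroup M).map M.subtype) := Q.isPGroup'.map _
    obtain ⟨R, hR⟩ := hQ'.exists_le_sylow
    obtain ⟨g, rfl⟩ := MulAction.exists_smul_eq G R P
    have hR' : ((Q : Subgroup M).map M.subtype) = R := eq_of_le_of_card_ge hR (by
      rw [card_map_of_injective M.subtype_injective, hQ]
      have : Nat.card (R : Subgroup G) = Nat.card ((g • R : Sylow 11 G) : Subgroup G) :=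
        Nat.card_congr (Subgroup.equivSMul (MulAut.conj g) (R : Subgroup G)).toEquiv
      rw [this, hP])
    rintro _ ⟨x, hx, rfl⟩
    exact hM.conj_mem x ((hR'.ge.trans (map_subtype_le _)) hx) g
  set N := normalizer ((P : Subgroup G) : Set G) with hNdef
  have hsup : N ⊔ M = ⊤ := by
    have h1 := Sylow.normalizer_sup_eq_top (N := M) (P.subtype hPM)
    rwa [show ((P.subtype hPM : Sylow 11 M) : Subgroup M).map M.subtype = (P : Subgroup G) by
      rw [Sylow.coe_subtype, subgroupOf_map_subtype, inf_eq_left.2 hPM]] at h1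
  have hinf : Nat.card ↥(M ⊓ N : Subgroup G) = 11 := by
    have h1 : Nat.card ↥(M ⊓ N : Subgroup G) ∣ 55 := (card_dvd_of_le inf_le_right).trans hN.dvd
    have h2 : 11 ∣ Nat.card ↥(M ⊓ N : Subgroup G) := hP ▸ card_dvd_of_le (le_inf hPM le_normalizer)
    obtain ⟨e, he⟩ := h2
    rw [he] at h1
    have : e ∣ 5 := Nat.dvd_of_mul_dvd_mul_left (by norm_num : 0 < 11) (by norm_num at h1 ⊢; exact h1)
    rcases (Nat.dvd_prime (by norm_num)).1 this with rfl | rfl
    · exact he
    · have hle : N ≤ M := by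
        have := eq_of_le_of_card_ge (inf_le_right : M ⊓ N ≤ N) (by rw [hN, he])
        rw [← this]; exact inf_le_left
      exact absurd (by rwa [sup_eq_right.2 hle] at hsup) hc.2
  set Q : Sylow 11 M := P.subtype hPM
  have hQC : normalizer ((Q : Subgroup M) : Set M) ≤ centralizer ((Q : Subgroup M) : Set M) := by
    intro x hx
    have hmem : (x : G) ∈ M ⊓ N := ⟨x.2, by
      rw [hNdef]
      refine mem_normalizer_fintype fun y hy => ?_
      exact ((mem_normalizer_iff.1 hx ⟨y, hPM hy⟩).1 hy :)⟩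
    have heq : (P : Subgroup G) = M ⊓ N := eq_of_le_of_card_ge (le_inf hPM le_normalizer) (by rw [hinf, hP])
    rw [← heq] at hmem
    exact mem_centralizer_iff.2 fun y hy => Subtype.ext (mem_centralizer_iff.1
      (hC.ge hmem) (y : G) hy)
  set K := (MonoidHom.transferSylow Q hQC).ker with hKdef
  have hcomp : IsComplement' K (Q : Subgroup M) := MonoidHom.ker_transferSylow_isComplement' Q hQC
  have hQcard : Nat.card (Q : Subgroup M) = 11 := by
    rw [Sylow.coe_subtype, Nat.card_congr (subgroupOfEquivOfLe hPM).toEquiv, hP]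
  have hKi : K.index = 11 := by rw [hcomp.symm.index_eq_card, hQcard]
  have hKd : ¬ 11 ∣ Nat.card K := fun hd' => by
    have h2 := K.card_mul_index
    rw [hKi] at h2
    have h3 : 11 * 11 ∣ 7920 := hG ▸ ((mul_dvd_mul_right hd' 11).trans h2.dvd).trans M.card_subgroup_dvd_card
    norm_num at h3
  -- `K` consists of the elements of `M` of order prime to `11`
  have hchar : ∀ x : M, x ∈ K ↔ ¬ 11 ∣ orderOf x := by
    intro x
    constructor
    · exact fun hx hd' => hKd (hd'.trans (Subgroup.orderOf_dvd_natCard _ hx))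
    · intro hx
      rw [← QuotientGroup.eq_one_iff, ← orderOf_eq_one_iff]
      refine Nat.eq_one_of_dvd_coprimes ((Fact.out : Nat.Prime 11).coprime_iff_not_dvd.2 hx).symm
        (orderOf_map_dvd (QuotientGroup.mk' K) x) ?_
      exact (_root_.orderOf_dvd_natCard _).trans (dvd_of_eq (by rw [← index_eq_card, hKi]))
  have hKn : (K.map M.subtype).Normal := ⟨by
    rintro _ ⟨x, hx, rfl⟩ g
    refine ⟨⟨g * x * g⁻¹, hM.conj_mem x x.2 g⟩, (hchar _).2 ?_, rfl⟩
    have e : orderOf (⟨g * x * g⁻¹, hM.conj_mem x x.2 g⟩ : M) = orderOf x := by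
      rw [← Subgroup.orderOf_coe, ← Subgroup.orderOf_coe x]
      exact (MulAut.conj g).orderOf_eq (x : G)
    rw [e]
    exact (hchar x).1 hx⟩
  by_cases hK1 : K.map M.subtype = ⊥
  · have hKb : K = ⊥ := (map_eq_bot_iff_of_injective _ M.subtype_injective).1 hK1
    have hM' : (P : Subgroup G) = M := by
      refine eq_of_le_of_card_ge hPM (le_of_eq ?_)
      rw [hP, ← hKi, hKb, index_bot]
    have : N = ⊤ := by rwa [← hM', sup_eq_left.2 le_normalizer] at hsup
    rw [this, card_top, hG] at hN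
    norm_num at hN
  · have := htrans _ hKn hK1
    rw [card_map_of_injective M.subtype_injective] at this
    exact hKd this

/-- A sharply `5`-transitive group of degree `12` is simple of order `95040`. -/
theorem simple_twelve [Fintype α] [DecidableEq α] (hα : Fintype.card α = 12) {G : Subgroup (Equiv.Perm α)}
    (h : Sharp 5 G) : IsSimpleGroup G ∧ Nat.card G = 95040 := by
  have hG : Nat.card G = 95040 := by rw [card_eq h (by omega), hα]; decide
  refine ⟨?_, hG⟩
  haveI : Nontrivial G := Finite.one_lt_card_iff_nontrivial.1 (by omega)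
  obtain ⟨a⟩ : Nonempty α := Fintype.card_pos_iff.1 (by omega)
  obtain ⟨H, hH, ⟨e⟩⟩ := stabilizer_sharp h a
  have hβ : Fintype.card {x : α // x ≠ a} = 11 := by
    rw [Fintype.card_subtype_compl, hα, Fintype.card_subtype_eq]
  obtain ⟨hHs, hHc⟩ := simple_eleven hβ hH
  set S := G ⊓ MulAction.stabilizer (Equiv.Perm α) a with hS
  refine ⟨fun M hM => ?_⟩
  by_contra! hc
  haveI := hHs
  haveI : IsSimpleGroup S := by
    haveI : Nontrivial S := e.toEquiv.nontrivial
    exact IsSimpleGroup.isSimpleGroup_of_surjective e.symm.toMonoidHom e.symm.surjective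
  let ι : S →* G := Subgroup.inclusion inf_le_left
  obtain ⟨⟨k, hk⟩, hk1⟩ := (ne_bot_iff_exists_ne_one (H := M)).1 hc.1
  obtain ⟨b, hb⟩ : ∃ b, (k : Equiv.Perm α) b ≠ b := by
    by_contra! hall
    exact hk1 (Subtype.ext (Subtype.ext (Equiv.ext hall)))
  haveI htr : MulAction.IsPretransitive M α := by
    have key : ∀ c, ∃ g : M, g • b = c := by
      intro c
      by_cases hcb : c = b
      · exact ⟨1, by rw [one_smul, hcb]⟩
      · obtain ⟨g, hg, e'⟩ := transitive h (by omega) (show 2 ≤ 5 by norm_num)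
          ⟨![b, (k : Equiv.Perm α) b], by intro i j; fin_cases i <;> fin_cases j <;> simp [hb, Ne.symm hb]⟩
          ⟨![b, c], by intro i j; fin_cases i <;> fin_cases j <;> simp [hcb, Ne.symm hcb]⟩
        have e0 : g b = b := e' 0
        have e1 : g ((k : Equiv.Perm α) b) = c := e' 1
        refine ⟨⟨(⟨g, hg⟩ : G) * k * (⟨g, hg⟩ : G)⁻¹, hM.conj_mem k hk _⟩, ?_⟩
        show (g * (k : Equiv.Perm α) * g⁻¹) b = c
        have e2 : g⁻¹ b = b := Equiv.Perm.inv_eq_iff_eq.2 e0.symm
        rw [Equiv.Perm.mul_apply, Equiv.Perm.mul_apply, e2, e1]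
    refine ⟨fun x y => ?_⟩
    obtain ⟨g, rfl⟩ := key x
    obtain ⟨g', rfl⟩ := key y
    exact ⟨g' * g⁻¹, by rw [smul_smul, inv_mul_cancel_right]⟩
  haveI := hM.comap ι
  rcases Subgroup.Normal.eq_bot_or_eq_top (H := M.comap ι) inferInstance with hb' | ht
  · -- a regular normal subgroup of order twelve
    have hst : MulAction.stabilizer M a = ⊥ := by
      rw [Subgroup.eq_bot_iff_forall]
      intro m hm
      have h1 : (⟨((m : G) : Equiv.Perm α), (m : G).2, hm⟩ : S) ∈ M.comap ι := m.2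
      rw [hb', Subgroup.mem_bot] at h1
      exact Subtype.ext (Subtype.ext (congrArg (fun w : S => (w : Equiv.Perm α)) h1 :))
    have hcard : Nat.card M = 12 := by
      have h1 := MulAction.index_stabilizer_of_transitive M a
      rw [hst, index_bot, Nat.card_eq_fintype_card (α := α), hα] at h1
      exact h1
    have horb : ∀ m m' : M, m • a = m' • a → m = m' := fun m m' hmm => by
      have : m'⁻¹ * m ∈ MulAction.stabilizer M a := by
        rw [MulAction.mem_stabilizer_iff, mul_smul, hmm, inv_smul_smul]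
      rw [hst, Subgroup.mem_bot, inv_mul_eq_one] at this
      exact this.symm
    haveI : Fact (Nat.Prime 2) := ⟨Nat.prime_two⟩
    haveI : Fact (Nat.Prime 3) := ⟨Nat.prime_three⟩
    obtain ⟨x, hx⟩ := exists_prime_orderOf_dvd_card' (G := M) 2 (by rw [hcard]; norm_num)
    obtain ⟨y, hy⟩ := exists_prime_orderOf_dvd_card' (G := M) 3 (by rw [hcard]; norm_num)
    have hxa : x • a ≠ a := fun e' => by
      rw [horb x 1 (by rw [one_smul, e']), orderOf_one] at hx; omega
    have hya : y • a ≠ a := fun e' => by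
      rw [horb y 1 (by rw [one_smul, e']), orderOf_one] at hy; omega
    obtain ⟨g, hg, e'⟩ := transitive h (by omega) (show 2 ≤ 5 by norm_num)
      ⟨![a, x • a], by intro i j; fin_cases i <;> fin_cases j <;> simp [hxa, Ne.symm hxa]⟩
      ⟨![a, y • a], by intro i j; fin_cases i <;> fin_cases j <;> simp [hya, Ne.symm hya]⟩
    have e0 : g a = a := e' 0
    have e1 : g (((x : G) : Equiv.Perm α) a) = ((y : G) : Equiv.Perm α) a := e' 1
    have e2 : g⁻¹ a = a := Equiv.Perm.inv_eq_iff_eq.2 e0.symm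
    let x' : M := ⟨(⟨g, hg⟩ : G) * x * (⟨g, hg⟩ : G)⁻¹, hM.conj_mem x x.2 _⟩
    have hxy : x' = y := horb _ _ (by
      show (g * ((x : G) : Equiv.Perm α) * g⁻¹) a = ((y : G) : Equiv.Perm α) a
      rw [Equiv.Perm.mul_apply, Equiv.Perm.mul_apply, e2, e1])
    have h2 : orderOf x' = orderOf x := by
      rw [← Subgroup.orderOf_coe, show ((x' : M) : G) = MulAut.conj (⟨g, hg⟩ : G) x from rfl,
        (MulAut.conj (⟨g, hg⟩ : G)).orderOf_eq, Subgroup.orderOf_coe]
    rw [hxy, hy, hx] at h2
    omega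
  · apply hc.2
    rw [eq_top_iff]
    intro g _
    obtain ⟨m, hm⟩ := MulAction.exists_smul_eq M a ((g : Equiv.Perm α) a)
    have h1 : ((m : G) : Equiv.Perm α)⁻¹ * (g : Equiv.Perm α) ∈ S := by
      refine ⟨G.mul_mem (G.inv_mem (m : G).2) g.2, ?_⟩
      show (((m : G) : Equiv.Perm α)⁻¹ * (g : Equiv.Perm α)) a = a
      rw [Equiv.Perm.mul_apply, Equiv.Perm.inv_eq_iff_eq]; exact hm.symm
    have h2 : ι ⟨_, h1⟩ ∈ M := by
      have : (⟨_, h1⟩ : S) ∈ M.comap ι := ht ▸ mem_top _
      exact this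
    have h3 : g = (m : G) * ι ⟨_, h1⟩ := Subtype.ext (by simp [ι])
    rw [h3]
    exact mul_mem m.2 h2

/-- No sharply `6`-transitive group has degree `13`. -/
theorem not_thirteen [Fintype α] [DecidableEq α] (hα : Fintype.card α = 13) {G : Subgroup (Equiv.Perm α)}
    (h : Sharp 6 G) : False := by
  haveI : Fact (Nat.Prime 13) := ⟨by norm_num⟩
  have hG : Nat.card G = 13 * 95040 := by rw [card_eq h (by omega), hα]; decide
  obtain ⟨P⟩ : Nonempty (Sylow 13 G) := inferInstance
  obtain ⟨-, -, d, hd, -, hnd, hmod⟩ := normalizer_prime (m := 95040) hα G hG (by norm_num) P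
  have : d ∈ Nat.divisors 12 := Nat.mem_divisors.2 ⟨hd, by norm_num⟩
  fin_cases this <;> omega

end Cfsg.Lib.SharpTrans
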