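import Mathlib
import Cfsg.Agent.Lib.Perm.SharpTrans

/-!
Jordan's theorem: sharply 4-transitive groups have degree 4, 5, 6 or 11; consequences for
higher degrees of sharp transitivity.
-/

set_option autoImplicit false

namespace Cfsg.Lib.SharpTrans

open Subgroup

universe u

variable {α : Type u} [Fintype α] [DecidableEq α]

theorem quad_inj {a b c d : α} (hab : a ≠ b) (hac : a ≠ c) (had : a ≠ d) (hbc : b ≠ c) (hbd : b ≠ d)
    (hcd : c ≠ d) : Function.Injective (![a, b, c, d] : Fin 4 → α) := by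
  intro i j
  fin_cases i <;> fin_cases j <;>
    simp [hab, hac, had, hbc, hbd, hcd, hab.symm, hac.symm, had.symm, hbc.symm, hbd.symm, hcd.symm]

/-- The elements of `G` fixing three given points. -/
def K3 (G : Subgroup (Equiv.Perm α)) (p q r : α) : Subgroup (Equiv.Perm α) :=
  G ⊓ (MulAction.stabilizer (Equiv.Perm α) p ⊓ (MulAction.stabilizer (Equiv.Perm α) q ⊓
    MulAction.stabilizer (Equiv.Perm α) r))

theorem mem_K3 {G : Subgroup (Equiv.Perm α)} {p q r : α} {k : Equiv.Perm α} :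
    k ∈ K3 G p q r ↔ k ∈ G ∧ k p = p ∧ k q = q ∧ k r = r := Iff.rfl

theorem fixed_card_le {G : Subgroup (Equiv.Perm α)} (h : Sharp 4 G) {g : Equiv.Perm α} (hg : g ∈ G)
    (hg1 : g ≠ 1) : g.supportᶜ.card ≤ 3 := by
  by_contra hc
  obtain ⟨x, hx⟩ : ∃ x : Fin 4 ↪ α, ∀ i, x i ∈ g.supportᶜ := by
    obtain ⟨e⟩ : Nonempty (Fin 4 ↪ {a : α // a ∈ g.supportᶜ}) :=
      Function.Embedding.nonempty_of_card_le (by rw [Fintype.card_fin, Fintype.card_coe]; omega)
    exact ⟨e.trans (Function.Embedding.subtype _), fun i => (e i).2⟩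
  exact hg1 (h.2 g hg x fun i => by simpa [Equiv.Perm.mem_support] using hx i)

variable {G : Subgroup (Equiv.Perm α)}

theorem K3_spec (h : Sharp 4 G) {p q r : α} (hpq : p ≠ q) (hpr : p ≠ r) (hqr : q ≠ r) {t : α}
    (htp : t ≠ p) (htq : t ≠ q) (htr : t ≠ r) :
    (∀ k ∈ K3 G p q r, ∀ k' ∈ K3 G p q r, k t = k' t → k = k') ∧
    (∀ u : α, u ≠ p → u ≠ q → u ≠ r → ∃ k ∈ K3 G p q r, k t = u) ∧
    Nat.card (K3 G p q r) = Fintype.card α - 3 := by
  classical
  have h1 : ∀ k ∈ K3 G p q r, ∀ k' ∈ K3 G p q r, k t = k' t → k = k' := by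
    intro k hk k' hk' e
    refine (inv_mul_eq_one.1 (h.2 (k'⁻¹ * k) (mul_mem (inv_mem hk'.1) hk.1)
      ⟨_, quad_inj hpq hpr htp.symm hqr htq.symm htr.symm⟩ fun i => ?_)).symm
    obtain ⟨-, a1, a2, a3⟩ := mem_K3.1 hk
    obtain ⟨-, b1, b2, b3⟩ := mem_K3.1 hk'
    show (k'⁻¹ * k) (![p, q, r, t] i) = ![p, q, r, t] i
    fin_cases i <;> simp [Equiv.Perm.mul_apply, Equiv.Perm.inv_eq_iff_eq, Equiv.symm_apply_eq, a1, a2, a3, b1, b2, b3, e]
  have h2 : ∀ u : α, u ≠ p → u ≠ q → u ≠ r → ∃ k ∈ K3 G p q r, k t = u := by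
    intro u hup huq hur
    obtain ⟨g, hg, e⟩ := h.1 ⟨_, quad_inj hpq hpr htp.symm hqr htq.symm htr.symm⟩
      ⟨_, quad_inj hpq hpr hup.symm hqr huq.symm hur.symm⟩
    exact ⟨g, mem_K3.2 ⟨hg, e 0, e 1, e 2⟩, e 3⟩
  refine ⟨h1, h2, ?_⟩
  have hb : Function.Bijective (fun k : K3 G p q r => (⟨(k : Equiv.Perm α) t, by
      obtain ⟨-, a1, a2, a3⟩ := mem_K3.1 k.2
      simp only [Finset.mem_compl, Finset.mem_insert, Finset.mem_singleton, not_or]
      refine ⟨fun e => htp ?_, fun e => htq ?_, fun e => htr ?_⟩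
      · exact (k : Equiv.Perm α).injective (e.trans a1.symm)
      · exact (k : Equiv.Perm α).injective (e.trans a2.symm)
      · exact (k : Equiv.Perm α).injective (e.trans a3.symm)⟩ : {u : α // u ∈ ({p, q, r} : Finset α)ᶜ})) := by
    refine ⟨fun a b e => Subtype.ext (h1 _ a.2 _ b.2 (congrArg Subtype.val e)), fun u => ?_⟩
    obtain ⟨h3, h4, h5⟩ : u.1 ≠ p ∧ u.1 ≠ q ∧ u.1 ≠ r := by simpa using u.2
    obtain ⟨k, hk, e⟩ := h2 u.1 h3 h4 h5
    exact ⟨⟨k, hk⟩, Subtype.ext e⟩
  rw [Nat.card_congr (Equiv.ofBijective _ hb), Nat.card_eq_fintype_card, Fintype.card_coe,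
    Finset.card_compl, Finset.card_insert_of_notMem (by simp [hpq, hpr]),
    Finset.card_insert_of_notMem (by simp [hqr]), Finset.card_singleton]

theorem fix_parity {g : Equiv.Perm α} (hg : g * g = 1) :
    g.supportᶜ.card ≡ Fintype.card α [MOD 2] := by
  haveI : Fact (Nat.Prime 2) := ⟨Nat.prime_two⟩
  exact Equiv.Perm.card_compl_support_modEq (p := 2) (n := 1) (by rw [pow_one, pow_two]; exact hg)

/-- In odd degree, an involution fixing two given points is determined by its third fixed point. -/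
theorem unique_involution (h : Sharp 4 G) (hn : 7 ≤ Fintype.card α) (hodd : Odd (Fintype.card α)) {p q r : α}
    (hpq : p ≠ q) (hpr : p ≠ r) (hqr : q ≠ r) :
    ∃ x ∈ K3 G p q r, x * x = 1 ∧ x ≠ 1 ∧ ∀ k ∈ K3 G p q r, k * k = 1 → k = 1 ∨ k = x := by
  classical
  haveI : Fact (Nat.Prime 2) := ⟨Nat.prime_two⟩
  set Ω : Finset α := ({p, q} : Finset α)ᶜ with hΩ
  set m := Ω.card with hm
  have hm' : m + 2 = Fintype.card α := by
    rw [hm, hΩ, Finset.card_compl, Finset.card_pair hpq]; omega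
  let I : Finset (Equiv.Perm α) :=
    Finset.univ.filter fun i => i ∈ G ∧ i p = p ∧ i q = q ∧ i * i = 1 ∧ i ≠ 1
  have hI : ∀ i, i ∈ I ↔ i ∈ G ∧ i p = p ∧ i q = q ∧ i * i = 1 ∧ i ≠ 1 := fun i => by simp [I]
  have hex : ∀ u ∈ Ω, ∃ i ∈ I, i u = u := by
    intro u hu
    obtain ⟨hup, huq⟩ : u ≠ p ∧ u ≠ q := by simpa [hΩ] using hu
    obtain ⟨t, ht⟩ : ∃ t, t ∉ ({p, q, u} : Finset α) := by
      by_contra! hall
      have := Finset.card_le_card (fun t (_ : t ∈ (Finset.univ : Finset α)) => hall t)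
      rw [Finset.card_univ] at this
      have h3 : ({p, q, u} : Finset α).card ≤ 3 := Finset.card_le_three
      omega
    simp only [Finset.mem_insert, Finset.mem_singleton, not_or] at ht
    have hc := (K3_spec h hpq hup.symm huq.symm ht.1 ht.2.1 ht.2.2).2.2
    obtain ⟨k, hk⟩ := exists_prime_orderOf_dvd_card' (G := K3 G p q u) 2 (by
      rw [hc]; obtain ⟨l, hl⟩ := hodd; omega)
    obtain ⟨a0, a1, a2, a3⟩ := mem_K3.1 k.2
    refine ⟨k, (hI _).2 ⟨a0, a1, a2, ?_, fun e => ?_⟩, a3⟩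
    · have := congrArg Subtype.val (orderOf_eq_prime_iff.1 hk).1
      rw [← pow_two]
      simpa using this
    · exact (orderOf_eq_prime_iff.1 hk).2 (Subtype.ext e)
  have hfix : ∀ i ∈ I, (Ω.filter fun u => i u = u).card = 1 := by
    intro i hi
    obtain ⟨a0, a1, a2, a3, a4⟩ := (hI i).1 hi
    have h1 := fix_parity a3
    have h2 := fixed_card_le h a0 a4
    have hsub : ({p, q} : Finset α) ⊆ i.supportᶜ := by
      intro u hu
      rcases Finset.mem_insert.1 hu with rfl | hu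
      · simpa [Equiv.Perm.mem_support] using a1
      · rw [Finset.mem_singleton] at hu; subst hu; simpa [Equiv.Perm.mem_support] using a2
    have h3 : (Ω.filter fun u => i u = u) = i.supportᶜ \ {p, q} := by
      ext u; simp [hΩ, Equiv.Perm.mem_support, and_comm]
    have h5 : 2 ≤ i.supportᶜ.card := (Finset.card_pair hpq) ▸ Finset.card_le_card hsub
    rw [h3, Finset.card_sdiff_of_subset hsub, Finset.card_pair hpq]
    rw [Nat.ModEq] at h1
    obtain ⟨l, hl⟩ := hodd
    omega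
  have hcard : I.card * (m - 1) = m * (m - 1) := by
    have h1 : ((I ×ˢ Ω).filter fun z => z.1 z.2 ≠ z.2).card = I.card * (m - 1) := by
      have hc : ∀ i ∈ I, (Ω.filter fun u => ¬ i u = u).card = m - 1 := by
        intro i hi
        have := Finset.card_filter_add_card_filter_not (s := Ω) (fun u => i u = u)
        rw [hfix i hi] at this
        omega
      rw [Finset.card_filter, Finset.sum_product, ← smul_eq_mul, ← Finset.sum_const]
      refine Finset.sum_congr rfl fun i hi => ?_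
      rw [← Finset.card_filter]
      exact hc i hi
    rw [← h1, Nat.mul_sub_one, ← Finset.offDiag_card]
    refine Finset.card_bij (fun z _ => (z.2, z.1 z.2)) ?_ ?_ ?_
    · rintro ⟨i, u⟩ hz
      simp only [Finset.mem_filter, Finset.mem_product] at hz
      obtain ⟨⟨hi, hu⟩, hne⟩ := hz
      obtain ⟨a0, a1, a2, a3, a4⟩ := (hI i).1 hi
      refine Finset.mem_offDiag.2 ⟨hu, ?_, fun e => hne e.symm⟩
      simp only [hΩ, Finset.mem_compl, Finset.mem_insert, Finset.mem_singleton, not_or] at hu ⊢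
      exact ⟨fun e => hu.1 (i.injective (e.trans a1.symm)), fun e => hu.2 (i.injective (e.trans a2.symm))⟩
    · rintro ⟨i, u⟩ hz ⟨i', u'⟩ hz' e
      simp only [Finset.mem_filter, Finset.mem_product, Prod.mk.injEq] at hz hz' e
      obtain ⟨e1, e2⟩ := e
      subst e1
      obtain ⟨a0, a1, a2, a3, a4⟩ := (hI i).1 hz.1.1
      obtain ⟨b0, b1, b2, b3, b4⟩ := (hI i').1 hz'.1.1
      have h2 : ∀ w, i (i w) = w := fun w => by rw [← Equiv.Perm.mul_apply, a3]; rfl
      have h2' : ∀ w, i' (i' w) = w := fun w => by rw [← Equiv.Perm.mul_apply, b3]; rfl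
      obtain ⟨hup, huq⟩ : u ≠ p ∧ u ≠ q := by simpa [hΩ] using hz.1.2
      have hvp : i u ≠ p := fun e => hup (i.injective (e.trans a1.symm))
      have hvq : i u ≠ q := fun e => huq (i.injective (e.trans a2.symm))
      have := h.2 (i'⁻¹ * i) (mul_mem (inv_mem b0) a0)
        ⟨_, quad_inj hpq hup.symm hvp.symm huq.symm hvq.symm hz.2.symm⟩ fun j => by
          show (i'⁻¹ * i) (![p, q, u, i u] j) = ![p, q, u, i u] j
          have e3 : i' (i u) = u := by rw [e2]; exact h2' u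
          fin_cases j <;> simp [Equiv.Perm.mul_apply, Equiv.Perm.inv_eq_iff_eq, Equiv.symm_apply_eq, a1, a2, b1, b2, h2, e3] <;> exact e2
      rw [inv_mul_eq_one] at this
      simp [this]
    · rintro ⟨u, v⟩ huv
      obtain ⟨hu, hv, hne⟩ := Finset.mem_offDiag.1 huv
      obtain ⟨hup, huq⟩ : u ≠ p ∧ u ≠ q := by simpa [hΩ] using hu
      obtain ⟨hvp, hvq⟩ : v ≠ p ∧ v ≠ q := by simpa [hΩ] using hv
      obtain ⟨g, hg, e⟩ := h.1 ⟨_, quad_inj hpq hup.symm hvp.symm huq.symm hvq.symm hne⟩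
        ⟨_, quad_inj hpq hvp.symm hup.symm hvq.symm huq.symm (Ne.symm hne)⟩
      have e0 : g p = p := e 0
      have e1 : g q = q := e 1
      have e2 : g u = v := e 2
      have e3 : g v = u := e 3
      have hsq : g * g = 1 := h.2 _ (mul_mem hg hg)
        ⟨_, quad_inj hpq hup.symm hvp.symm huq.symm hvq.symm hne⟩ fun j => by
          show (g * g) (![p, q, u, v] j) = ![p, q, u, v] j
          fin_cases j <;> simp [Equiv.Perm.mul_apply, e0, e1, e2, e3]
      refine ⟨(g, u), ?_, by simp [e2]⟩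
      simp only [Finset.mem_filter, Finset.mem_product]
      exact ⟨⟨(hI g).2 ⟨hg, e0, e1, hsq, fun e' => hne (by rw [← e2, e']; rfl)⟩, hu⟩,
        by rw [e2]; exact hne.symm⟩
  have hIm : I.card = m := Nat.eq_of_mul_eq_mul_right (by omega) hcard
  obtain ⟨x, hx, hxr⟩ := hex r (by simp [hΩ, Ne.symm hpr, Ne.symm hqr])
  obtain ⟨x0, x1, x2, x3, x4⟩ := (hI x).1 hx
  refine ⟨x, mem_K3.2 ⟨x0, x1, x2, hxr⟩, x3, x4, fun k hk hk2 => ?_⟩
  by_contra! hc
  obtain ⟨k0, k1, k2, k3⟩ := mem_K3.1 hk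
  have hkI : k ∈ I := (hI k).2 ⟨k0, k1, k2, hk2, hc.1⟩
  -- choose an involution for each point; the choice would be surjective
  choose f hf hfu using hex
  have hfi : ∀ u hu u' hu', f u hu = f u' hu' → u = u' := by
    intro u hu u' hu' e
    by_contra hne
    have h1 := hfix _ (hf u hu)
    have h2 : ({u, u'} : Finset α) ⊆ Ω.filter fun w => f u hu w = w := by
      intro w hw
      rcases Finset.mem_insert.1 hw with rfl | hw
      · exact Finset.mem_filter.2 ⟨hu, hfu _ hu⟩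
      · rw [Finset.mem_singleton] at hw; subst hw
        exact Finset.mem_filter.2 ⟨hu', by rw [e]; exact hfu _ hu'⟩
    have := Finset.card_le_card h2
    rw [Finset.card_pair hne, h1] at this
    omega
  have hsurj := Finset.surj_on_of_inj_on_of_card_le (fun u hu => f u hu) hf (fun u u' hu hu' => hfi u hu u' hu') (le_of_eq hIm)
  have hmem : ∀ i ∈ I, i r = r → ∀ hr : r ∈ Ω, i = f r hr := by
    intro i hi hir hr
    obtain ⟨u, hu, rfl⟩ := hsurj i hi
    have h1 := hfix _ hi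
    obtain ⟨w, hw⟩ := Finset.card_eq_one.1 h1
    have e1 : u = w := Finset.mem_singleton.1 (hw ▸ Finset.mem_filter.2 ⟨hu, hfu _ hu⟩)
    have e2 : r = w := Finset.mem_singleton.1 (hw ▸ Finset.mem_filter.2 ⟨hr, hir⟩)
    subst e1 e2
    rfl
  have hr : r ∈ Ω := by simp [hΩ, Ne.symm hpr, Ne.symm hqr]
  exact hc.2 ((hmem k hkI k3 hr).trans (hmem x hx hxr hr).symm)

/-- Jordan's theorem on sharply 4-transitive groups. -/
theorem jordan (h : Sharp 4 G) (hn : 7 ≤ Fintype.card α) : Fintype.card α = 11 := by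
  classical
  obtain ⟨e⟩ : Nonempty (Fin 4 ↪ α) := Function.Embedding.nonempty_of_card_le (by rw [Fintype.card_fin]; omega)
  obtain ⟨p, q, r, t, hpq, hpr, hpt, hqr, hqt, hrt⟩ : ∃ p q r t : α,
      p ≠ q ∧ p ≠ r ∧ p ≠ t ∧ q ≠ r ∧ q ≠ t ∧ r ≠ t := by
    refine ⟨e 0, e 1, e 2, e 3, ?_, ?_, ?_, ?_, ?_, ?_⟩ <;> exact fun e' => by simpa using e.injective e'
  set K := K3 G p q r with hK
  obtain ⟨hKinj, hKsurj, hKcard⟩ := K3_spec h hpq hpr hqr hpt.symm hqt.symm hrt.symm
  let b4 : Fin 4 ↪ α := ⟨_, quad_inj hpq hpr hpt hqr hqt hrt⟩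
  obtain ⟨y₁, hy₁, a⟩ := h.1 b4 ⟨_, quad_inj hpq.symm hqr hqt hpr hpt hrt⟩
  obtain ⟨y₂, hy₂, b⟩ := h.1 b4 ⟨_, quad_inj hqr.symm hpr.symm hrt hpq.symm hqt hpt⟩
  obtain ⟨y₃, hy₃, c⟩ := h.1 b4 ⟨_, quad_inj hpr hpq hpt hqr.symm hrt hqt⟩
  have a0 : y₁ p = q := a 0
  have a1 : y₁ q = p := a 1
  have a2 : y₁ r = r := a 2
  have a3 : y₁ t = t := a 3
  have b0 : y₂ p = r := b 0
  have b1 : y₂ q = q := b 1
  have b2 : y₂ r = p := b 2
  have b3 : y₂ t = t := b 3
  have c0 : y₃ p = p := c 0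
  have c1 : y₃ q = r := c 1
  have c2 : y₃ r = q := c 2
  have c3 : y₃ t = t := c 3
  have ext4 : ∀ g ∈ G, g p = p → g q = q → g r = r → g t = t → g = 1 := fun g hg h0 h1 h2 h3 =>
    h.2 g hg b4 fun j => by
      show g (![p, q, r, t] j) = ![p, q, r, t] j
      fin_cases j <;> simp [h0, h1, h2, h3]
  have hy1s : y₁ * y₁ = 1 := ext4 _ (mul_mem hy₁ hy₁) (by simp [a0, a1]) (by simp [a0, a1])
    (by simp [a2]) (by simp [a3])
  have hy2s : y₂ * y₂ = 1 := ext4 _ (mul_mem hy₂ hy₂) (by simp [b0, b2]) (by simp [b1])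
    (by simp [b0, b2]) (by simp [b3])
  have hy3s : y₃ * y₃ = 1 := ext4 _ (mul_mem hy₃ hy₃) (by simp [c0]) (by simp [c1, c2])
    (by simp [c1, c2]) (by simp [c3])
  -- elements stabilizing the triple and fixing `t`
  have hconj : ∀ g ∈ G, ({g p, g q, g r} : Set α) = {p, q, r} → ∀ k ∈ K, g * k * g⁻¹ ∈ K := by
    intro g hg hset k hk
    obtain ⟨k0, k1, k2, k3⟩ := mem_K3.1 hk
    have hf : ∀ z ∈ ({g p, g q, g r} : Set α), (g * k * g⁻¹) z = z := by
      rintro z (rfl | rfl | rfl) <;> simp [k1, k2, k3]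
    exact mem_K3.2 ⟨mul_mem (mul_mem hg k0) (inv_mem hg), hf p (hset ▸ by simp), hf q (hset ▸ by simp),
      hf r (hset ▸ by simp)⟩
  have hfix : ∀ g ∈ G, ({g p, g q, g r} : Set α) = {p, q, r} → g t = t →
      ∀ k ∈ K, (g (k t) = k t ↔ g * k * g⁻¹ = k) := by
    intro g hg hset hgt k hk
    have h1 : (g * k * g⁻¹) t = g (k t) := by
      have : Equiv.symm g t = t := by rw [Equiv.symm_apply_eq, hgt]
      simp [this]
    refine ⟨fun e' => hKinj _ (hconj g hg hset k hk) _ hk (h1.trans e'), fun e' => ?_⟩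
    rw [← h1, e']
  have hne4 : ∀ k ∈ K, k t ≠ p ∧ k t ≠ q ∧ k t ≠ r := by
    intro k hk
    obtain ⟨k0, k1, k2, k3⟩ := mem_K3.1 hk
    exact ⟨fun e' => hpt (k.injective (k1.trans e'.symm)), fun e' => hqt (k.injective (k2.trans e'.symm)),
      fun e' => hrt (k.injective (k3.trans e'.symm))⟩
  have hs1 : ({y₁ p, y₁ q, y₁ r} : Set α) = {p, q, r} := by rw [a0, a1, a2]; ext z; simp; tauto
  have hs2 : ({y₂ p, y₂ q, y₂ r} : Set α) = {p, q, r} := by rw [b0, b1, b2]; ext z; simp; tauto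
  have hs3 : ({y₃ p, y₃ q, y₃ r} : Set α) = {p, q, r} := by rw [c0, c1, c2]; ext z; simp; tauto
  haveI : Fact (Nat.Prime 2) := ⟨Nat.prime_two⟩
  haveI : Fact (Nat.Prime 3) := ⟨Nat.prime_three⟩
  let KF : Finset (Equiv.Perm α) := Finset.univ.filter (· ∈ K)
  have hKF : ∀ k, k ∈ KF ↔ k ∈ K := fun k => by simp [KF]
  have hKFcard : KF.card = Fintype.card α - 3 := by
    rw [← hKcard, Nat.card_eq_fintype_card, Fintype.card_subtype]
  -- the data of a product of two of the three involutions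
  have hw : ∀ g g' : Equiv.Perm α, g ∈ G → g' ∈ G → ({g p, g q, g r} : Set α) = {p, q, r} →
      ({g' p, g' q, g' r} : Set α) = {p, q, r} → g t = t → g' t = t → g * g = 1 → g' * g' = 1 →
      (g * g') p ≠ p → (g * g') q ≠ q → (g * g') r ≠ r →
      ((g * g') p = q ∧ (g * g') q = r ∧ (g * g') r = p ∨ (g * g') p = r ∧ (g * g') q = p ∧ (g * g') r = q) →
      (∀ k ∈ K, g * k * g⁻¹ = k⁻¹ → g' * k * g'⁻¹ = k⁻¹ → (g * g') (k t) = k t) ∧
        (g * g') ^ 3 = 1 ∧ g * g' ∈ G := by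
    intro g g' hg hg' hgs hgs' hgt hgt' hgg hgg' _ _ _ hcyc
    refine ⟨fun k hk e1 e2 => ?_, ?_, mul_mem hg hg'⟩
    · rw [Equiv.Perm.mul_apply]
      have h1 : g' (k t) = k⁻¹ t := by
        have : Equiv.symm g' t = t := by rw [Equiv.symm_apply_eq, hgt']
        rw [← e2]; simp [this]
      have h2 : g (k⁻¹ t) = k t := by
        have h3 : g * k⁻¹ * g⁻¹ = k := by
          calc g * k⁻¹ * g⁻¹ = g * (g * k * g⁻¹) * g⁻¹ := by rw [e1]
            _ = (g * g) * k * (g * g)⁻¹ := by group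
            _ = k := by rw [hgg]; group
        have : Equiv.symm g t = t := by rw [Equiv.symm_apply_eq, hgt]
        calc g (k⁻¹ t) = (g * k⁻¹ * g⁻¹) t := by simp [this]
          _ = k t := by rw [h3]
      rw [h1, h2]
    · have ht3 : (g * g') t = t := by simp [hgt, hgt']
      refine ext4 _ (pow_mem (mul_mem hg hg') 3) ?_ ?_ ?_ ?_ <;>
        simp only [pow_succ, pow_zero, one_mul, Equiv.Perm.mul_apply] at ht3 hcyc ⊢ <;>
        rcases hcyc with ⟨u1, u2, u3⟩ | ⟨u1, u2, u3⟩ <;> simp [u1, u2, u3, ht3]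
  have hfixle : ∀ g ∈ G, g ≠ 1 → ∀ s : Finset α, (∀ z ∈ s, g z = z) → s.card ≤ 3 := fun g hg hg1 s hs =>
    (Finset.card_le_card fun z hz => by simp [Equiv.Perm.mem_support, hs z hz]).trans (fixed_card_le h hg hg1)
  have hn0 : ∀ g : Equiv.Perm α, g p ≠ p → g ≠ 1 := fun g hg e' => hg (by rw [e']; rfl)
  obtain hev | hodd := Nat.even_or_odd (Fintype.card α)
  · exfalso
    -- each of `y₁, y₂` inverts all of `K`
    have hinv : ∀ g, g ∈ G → ({g p, g q, g r} : Set α) = {p, q, r} → g t = t → g * g = 1 → g ≠ 1 →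
        ∀ o, o ≠ t → g o = o → (o = p ∨ o = q ∨ o = r) → ∀ k ∈ K, g * k * g⁻¹ = k⁻¹ := by
      intro g hg hgs hgt hgg hg1 o hot hgo ho
      have hC : ∀ k ∈ K, g * k * g⁻¹ = k → k = 1 := by
        intro k hk e'
        by_contra hk1
        have hkt : k t ≠ t := fun e2 => hk1 (hKinj k hk 1 (one_mem _) e2)
        have hko : k t ≠ o := by
          rcases ho with rfl | rfl | rfl
          · exact (hne4 k hk).1
          · exact (hne4 k hk).2.1
          · exact (hne4 k hk).2.2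
        have h3 : ({o, t, k t} : Finset α) ⊆ g.supportᶜ := by
          intro z hz
          simp only [Finset.mem_insert, Finset.mem_singleton] at hz
          rcases hz with rfl | rfl | rfl <;> simp [Equiv.Perm.mem_support, hgo, hgt, (hfix g hg hgs hgt k hk).2 e']
        have h4 := Finset.card_le_card h3
        rw [Finset.card_insert_of_notMem (by simp [hot, hko.symm]), Finset.card_pair hkt.symm] at h4
        have h5 := fix_parity hgg
        have h6 := fixed_card_le h hg hg1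
        rw [Nat.ModEq] at h5
        obtain ⟨l, hl⟩ := hev
        omega
      let φ : K → K := fun k => ⟨(k : Equiv.Perm α)⁻¹ * (g * k * g⁻¹),
        mul_mem (inv_mem k.2) (hconj g hg hgs k k.2)⟩
      have hφ : Function.Injective φ := by
        intro k k' e'
        have e2 : (k : Equiv.Perm α)⁻¹ * (g * k * g⁻¹) = (k' : Equiv.Perm α)⁻¹ * (g * k' * g⁻¹) :=
          congrArg Subtype.val e'
        have e3 : g * ((k' : Equiv.Perm α) * (k : Equiv.Perm α)⁻¹) * g⁻¹ = (k' : Equiv.Perm α) * (k : Equiv.Perm α)⁻¹ := by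
          rw [inv_mul_eq_iff_eq_mul] at e2
          calc g * ((k' : Equiv.Perm α) * (k : Equiv.Perm α)⁻¹) * g⁻¹
              = (g * k' * g⁻¹) * (g * k * g⁻¹)⁻¹ := by group
            _ = (k' : Equiv.Perm α) * (k : Equiv.Perm α)⁻¹ := by rw [e2]; group
        exact Subtype.ext (mul_inv_eq_one.1 (hC _ (mul_mem k'.2 (inv_mem k.2)) e3)).symm
      intro k hk
      obtain ⟨k', hk'⟩ := (Finite.injective_iff_surjective.1 hφ) ⟨k, hk⟩
      have e' : (k' : Equiv.Perm α)⁻¹ * (g * k' * g⁻¹) = k := congrArg Subtype.val hk'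
      rw [← e']
      have hgi : g⁻¹ = g := inv_eq_of_mul_eq_one_right hgg
      simp only [mul_inv_rev, hgi, inv_inv, mul_assoc]
      simp [hgg]
    have hne1 : y₁ ≠ 1 := hn0 _ (by rw [a0]; exact hpq.symm)
    have hne2 : y₂ ≠ 1 := hn0 _ (by rw [b0]; exact hpr.symm)
    have hi1 := hinv y₁ hy₁ hs1 a3 hy1s hne1 r hrt a2 (Or.inr (Or.inr rfl))
    have hi2 := hinv y₂ hy₂ hs2 b3 hy2s hne2 q hqt b1 (Or.inr (Or.inl rfl))
    obtain ⟨hk, -, hG12⟩ := hw y₁ y₂ hy₁ hy₂ hs1 hs2 a3 b3 hy1s hy2s (by simp [b0, a2, hpr.symm])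
      (by simp [b1, a1, hpq]) (by simp [b2, a0, hqr]) (Or.inr ⟨by simp [b0, a2], by simp [b1, a1], by simp [b2, a0]⟩)
    have h4 := hfixle _ hG12 (hn0 _ (by simp [b0, a2, hpr.symm])) (KF.image fun k => k t) (fun z hz => by
      obtain ⟨k, hkm, rfl⟩ := Finset.mem_image.1 hz
      exact hk k ((hKF k).1 hkm) (hi1 k ((hKF k).1 hkm)) (hi2 k ((hKF k).1 hkm)))
    rw [Finset.card_image_of_injOn (fun k hk k' hk' e' => hKinj k ((hKF k).1 hk) k' ((hKF k').1 hk') e'),
      hKFcard] at h4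
    obtain ⟨l, hl⟩ := hev
    omega
  · obtain ⟨x, hxK, hxx, hx1, hxu⟩ := unique_involution h hn hodd hpq hpr hqr
    have hxt : x t ≠ t := fun e' => hx1 (hKinj x hxK 1 (one_mem _) e')
    have hxg : ∀ g ∈ G, ({g p, g q, g r} : Set α) = {p, q, r} → g * x * g⁻¹ = x := by
      intro g hg hgs
      refine (hxu _ (hconj g hg hgs x hxK) (by rw [conj_mul, hxx, mul_one, mul_inv_cancel])).resolve_left ?_
      rw [conj_eq_one_iff]; exact hx1
    -- centralizers in `K`
    have hC : ∀ g, g ∈ G → ({g p, g q, g r} : Set α) = {p, q, r} → g t = t → g ≠ 1 →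
        ∀ k ∈ K, g * k * g⁻¹ = k → k = 1 ∨ k = x := by
      intro g hg hgs hgt hg1 k hk e'
      by_contra! hc
      have hkx : k * x ∈ K := mul_mem hk hxK
      have e2 : g * (k * x) * g⁻¹ = k * x := by rw [← conj_mul, e', hxg g hg hgs]
      have hkt : k t ≠ t := fun e3 => hc.1 (hKinj k hk 1 (one_mem _) e3)
      have hkxt : k t ≠ x t := fun e3 => hc.2 (hKinj k hk x hxK e3)
      have hkk : (k * x) t ≠ k t := fun e3 => hxt (k.injective e3)
      have hkx1 : (k * x) t ≠ t := fun e3 => hc.2 (by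
        rw [mul_eq_one_iff_eq_inv.1 (hKinj _ hkx 1 (one_mem _) e3), inv_eq_of_mul_eq_one_right hxx])
      have hkx2 : (k * x) t ≠ x t := fun e3 => hc.1 (mul_eq_right.1 (hKinj _ hkx x hxK e3))
      have h4 := hfixle g hg hg1 {t, x t, k t, (k * x) t} (by
        intro z hz
        simp only [Finset.mem_insert, Finset.mem_singleton] at hz
        rcases hz with rfl | rfl | rfl | rfl
        · exact hgt
        · exact (hfix g hg hgs hgt x hxK).2 (hxg g hg hgs)
        · exact (hfix g hg hgs hgt k hk).2 e'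
        · exact (hfix g hg hgs hgt _ hkx).2 e2)
      rw [Finset.card_insert_of_notMem (by
          simp only [Finset.mem_insert, Finset.mem_singleton, not_or]
          exact ⟨hxt.symm, hkt.symm, hkx1.symm⟩),
        Finset.card_insert_of_notMem (by
          simp only [Finset.mem_insert, Finset.mem_singleton, not_or]
          exact ⟨hkxt.symm, hkx2.symm⟩),
        Finset.card_pair hkk.symm] at h4
      omega
    let T : Equiv.Perm α → Finset (Equiv.Perm α) := fun g =>
      KF.filter fun k => g * k * g⁻¹ = k⁻¹ ∧ k ≠ 1 ∧ k ≠ x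
    have hT : ∀ g, g ∈ G → ({g p, g q, g r} : Set α) = {p, q, r} → g t = t → g * g = 1 → g ≠ 1 →
        KF.card ≤ 2 * ((T g).card + 2) := by
      intro g hg hgs hgt hgg hg1
      let φ : Equiv.Perm α → Equiv.Perm α := fun k => k⁻¹ * (g * k * g⁻¹)
      have h1 : KF.card ≤ 2 * (KF.image φ).card := by
        refine Finset.card_le_mul_card_image KF 2 fun v hv => ?_
        obtain ⟨k₀, hk₀, rfl⟩ := Finset.mem_image.1 hv
        refine (Finset.card_le_card (t := ({k₀, x * k₀} : Finset (Equiv.Perm α))) fun k hk => ?_).trans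
          Finset.card_le_two
        simp only [Finset.mem_filter, hKF] at hk
        obtain ⟨hk, e'⟩ := hk
        have hk₀' := (hKF k₀).1 hk₀
        have e3 : g * (k * k₀⁻¹) * g⁻¹ = k * k₀⁻¹ := by
          have e2 : g * k * g⁻¹ = k * (k₀⁻¹ * (g * k₀ * g⁻¹)) := inv_mul_eq_iff_eq_mul.1 e'
          calc g * (k * k₀⁻¹) * g⁻¹ = (g * k * g⁻¹) * (g * k₀ * g⁻¹)⁻¹ := by group
            _ = k * k₀⁻¹ := by rw [e2]; group
        simp only [Finset.mem_insert, Finset.mem_singleton]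
        rcases hC g hg hgs hgt hg1 _ (mul_mem hk (inv_mem hk₀')) e3 with e4 | e4
        · exact Or.inl (mul_inv_eq_one.1 e4)
        · exact Or.inr (mul_inv_eq_iff_eq_mul.1 e4)
      have h2 : KF.image φ ⊆ T g ∪ {1, x} := by
        intro v hv
        obtain ⟨k, hk, rfl⟩ := Finset.mem_image.1 hv
        rw [Finset.mem_union]
        by_cases hv1 : φ k = 1 ∨ φ k = x
        · right; simpa using hv1
        · left
          rw [not_or] at hv1
          have hk' := (hKF k).1 hk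
          refine Finset.mem_filter.2 ⟨(hKF _).2 (mul_mem (inv_mem hk') (hconj g hg hgs k hk')), ?_, hv1⟩
          have hgi : g⁻¹ = g := inv_eq_of_mul_eq_one_right hgg
          show g * (k⁻¹ * (g * k * g⁻¹)) * g⁻¹ = (k⁻¹ * (g * k * g⁻¹))⁻¹
          simp only [mul_inv_rev, hgi, inv_inv, mul_assoc]
          rw [hgg, mul_one]
      refine h1.trans (Nat.mul_le_mul_left 2 ((Finset.card_le_card h2).trans ?_))
      exact (Finset.card_union_le _ _).trans (Nat.add_le_add_left Finset.card_le_two _)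
    have hne1 : y₁ ≠ 1 := hn0 _ (by rw [a0]; exact hpq.symm)
    have hne2 : y₂ ≠ 1 := hn0 _ (by rw [b0]; exact hpr.symm)
    have hne3 : y₃ ≠ 1 := fun e' => hqr (by rw [← c1, e']; rfl)
    have hdisj : ∀ g g', g ∈ G → g' ∈ G → ({g p, g q, g r} : Set α) = {p, q, r} →
        ({g' p, g' q, g' r} : Set α) = {p, q, r} → g t = t → g' t = t → g * g = 1 → g' * g' = 1 →
        (g * g') p ≠ p → Disjoint (T g) (T g') := by
      intro g g' hg hg' hgs hgs' hgt hgt' hgg hgg' hp'
      rw [Finset.disjoint_left]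
      intro k hk hk'
      simp only [T, Finset.mem_filter, hKF] at hk hk'
      obtain ⟨hkK, e1, hk1, hkx⟩ := hk
      have e2 := hk'.2.1
      have h1 : g * (g' * k * g'⁻¹) * g⁻¹ = k := by
        rw [e2]
        calc g * k⁻¹ * g⁻¹ = (g * k * g⁻¹)⁻¹ := by group
          _ = k := by rw [e1, inv_inv]
      have hset : ({(g * g') p, (g * g') q, (g * g') r} : Set α) = {p, q, r} := by
        calc ({(g * g') p, (g * g') q, (g * g') r} : Set α) = g '' {g' p, g' q, g' r} := by
              simp [Set.image_insert_eq, Equiv.Perm.mul_apply]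
          _ = g '' {p, q, r} := by rw [hgs']
          _ = {p, q, r} := by simp [Set.image_insert_eq, hgs]
      rcases hC (g * g') (mul_mem hg hg') hset (by simp [hgt, hgt']) (hn0 _ hp') k hkK
        (by rw [mul_inv_rev]; calc g * g' * k * (g'⁻¹ * g⁻¹) = g * (g' * k * g'⁻¹) * g⁻¹ := by group
                                               _ = k := h1) with e3 | e3
      · exact hk1 e3
      · exact hkx e3
    have hsub : T y₁ ∪ T y₂ ∪ T y₃ ⊆ KF \ {1, x} := by
      intro k hk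
      simp only [T, Finset.mem_union, Finset.mem_filter, or_assoc] at hk
      simp only [Finset.mem_sdiff, Finset.mem_insert, Finset.mem_singleton, not_or]
      rcases hk with hk | hk | hk <;> exact ⟨hk.1, hk.2.2⟩
    have d12 := hdisj y₁ y₂ hy₁ hy₂ hs1 hs2 a3 b3 hy1s hy2s (by simp [b0, a2, hpr.symm])
    have d13 := hdisj y₁ y₃ hy₁ hy₃ hs1 hs3 a3 c3 hy1s hy3s (by simp [c0, a0, hpq.symm])
    have d23 := hdisj y₂ y₃ hy₂ hy₃ hs2 hs3 b3 c3 hy2s hy3s (by simp [c0, b0, hpr.symm])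
    have hcard := Finset.card_le_card hsub
    rw [Finset.card_union_of_disjoint (Finset.disjoint_union_left.2 ⟨d13, d23⟩),
      Finset.card_union_of_disjoint d12, Finset.card_sdiff_of_subset (by
        intro k hk
        simp only [Finset.mem_insert, Finset.mem_singleton] at hk
        rw [hKF]
        rcases hk with rfl | rfl
        · exact one_mem _
        · exact hxK), Finset.card_pair (Ne.symm hx1)] at hcard
    have t1 := hT y₁ hy₁ hs1 a3 hy1s hne1
    have t2 := hT y₂ hy₂ hs2 b3 hy2s hne2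
    have t3 := hT y₃ hy₃ hs3 c3 hy3s hne3
    -- fixed points of the element of order three
    obtain ⟨-, hw3, hG12⟩ := hw y₁ y₂ hy₁ hy₂ hs1 hs2 a3 b3 hy1s hy2s (by simp [b0, a2, hpr.symm])
      (by simp [b1, a1, hpq]) (by simp [b2, a0, hqr]) (Or.inr ⟨by simp [b0, a2], by simp [b1, a1], by simp [b2, a0]⟩)
    set w := y₁ * y₂
    have wp : w p = r := by simp [w, b0, a2]
    have wq : w q = p := by simp [w, b1, a1]
    have wr : w r = q := by simp [w, b2, a0]
    have hws : ({w p, w q, w r} : Set α) = {p, q, r} := by rw [wp, wq, wr]; ext z; simp; tauto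
    have hwt : w t = t := by simp [w, a3, b3]
    have hwfix : w.supportᶜ = {t, x t} := by
      ext z
      simp only [Finset.mem_compl, Equiv.Perm.mem_support, not_not, Finset.mem_insert, Finset.mem_singleton]
      refine ⟨fun hz => ?_, ?_⟩
      · obtain ⟨k, hk, rfl⟩ := hKsurj z (fun e' => hpr (by rw [← wp, ← e', hz]))
          (fun e' => hpq (by rw [← wq, ← e', hz])) (fun e' => hqr (by rw [← wr, ← e', hz]))
        rcases hC w hG12 hws hwt (hn0 _ (by rw [wp]; exact hpr.symm)) k hk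
          ((hfix w hG12 hws hwt k hk).1 hz) with rfl | rfl
        · exact Or.inl rfl
        · exact Or.inr rfl
      · rintro (rfl | rfl)
        · exact hwt
        · exact (hfix w hG12 hws hwt x hxK).2 (hxg w hG12 hws)
    have hmod := Equiv.Perm.card_compl_support_modEq (p := 3) (n := 1) (σ := w) (by rw [pow_one]; exact hw3)
    rw [hwfix, Finset.card_pair hxt.symm, Nat.ModEq] at hmod
    obtain ⟨l, hl⟩ := hodd
    omega

theorem degree_four (h : Sharp 4 G) (hn : 4 ≤ Fintype.card α) :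
    Fintype.card α = 4 ∨ Fintype.card α = 5 ∨ Fintype.card α = 6 ∨ Fintype.card α = 11 := by
  by_cases h7 : 7 ≤ Fintype.card α
  · have := jordan h h7; omega
  · omega

theorem degree_five (h : Sharp 5 G) (hn : 5 ≤ Fintype.card α) :
    Fintype.card α = 5 ∨ Fintype.card α = 6 ∨ Fintype.card α = 7 ∨ Fintype.card α = 12 := by
  obtain ⟨a⟩ : Nonempty α := Fintype.card_pos_iff.1 (by omega)
  obtain ⟨H, hH, -⟩ := stabilizer_sharp h a
  have hc : Fintype.card {x : α // x ≠ a} = Fintype.card α - 1 := by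
    rw [Fintype.card_subtype_compl, Fintype.card_subtype_eq]
  have := degree_four hH (by omega)
  omega

theorem degree_large : ∀ (k : ℕ) (α : Type u) [Fintype α] [DecidableEq α] (G : Subgroup (Equiv.Perm α)),
    6 ≤ k → k ≤ Fintype.card α → Sharp k G →
    Fintype.card α = k ∨ Fintype.card α = k + 1 ∨ Fintype.card α = k + 2 := by
  intro k
  induction k using Nat.strong_induction_on with
  | _ k ih =>
    intro α _ _ G hk hn h
    obtain ⟨j, rfl⟩ : ∃ j, k = j + 1 := ⟨k - 1, by omega⟩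
    obtain ⟨a⟩ : Nonempty α := Fintype.card_pos_iff.1 (by omega)
    obtain ⟨H, hH, -⟩ := stabilizer_sharp h a
    have hc : Fintype.card {x : α // x ≠ a} = Fintype.card α - 1 := by
      rw [Fintype.card_subtype_compl, Fintype.card_subtype_eq]
    rcases Nat.lt_or_ge j 6 with hj | hj
    · obtain rfl : j = 5 := by omega
      have h5 := degree_five hH (by omega)
      by_cases h13 : Fintype.card α = 13
      · exact (not_thirteen h13 h).elim
      · omega
    · have := ih j (by omega) _ H hj (by omega) hH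
      omega

end Cfsg.Lib.SharpTrans
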